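import Cfsg.Agent.H24.Misc

/-! The Borel–Tits theorem for Chevalley groups, via optimal cocharacters. -/

set_option autoImplicit false
set_option linter.unusedSectionVars false

open Finset H24 St0

namespace H20.BT

variable {ι Φ : Type} [Fintype ι] [DecidableEq ι] [Fintype Φ] [DecidableEq Φ]

section Root
variable {R : RS ι Φ} {f f' : Φ → ℝ} {w : Equiv.Perm Φ}

variable (R) in
/-- restrictions of real linear forms to the roots -/
def Ad (f : Φ → ℝ) : Prop := ∀ r, f r = ∑ i, (R.rt r i : ℝ) * f (R.sim i)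

variable (R) in
/-- dominant forms -/
def Dom (f : Φ → ℝ) : Prop := ∀ i, 0 ≤ f (R.sim i)

/-- the invariant norm -/
def NN (f : Φ → ℝ) : ℝ := ∑ r, f r ^ 2

variable (R) in
/-- the linear form -/
def lf (f : Φ → ℝ) : (ι → ℤ) →ₗ[ℤ] ℝ where
  toFun v := ∑ i, (v i : ℝ) * f (R.sim i)
  map_add' u v := by simp [add_mul, sum_add_distrib]
  map_smul' c v := by simp [mul_sum, mul_assoc]

theorem Ad.eq (h : Ad R f) (r : Φ) : f r = lf R f (R.rt r) := h r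

theorem Ad.comb (h : Ad R f) {r s u : Φ} {i j : ℕ}
    (e : R.rt u = (i : ℤ) • R.rt r + (j : ℤ) • R.rt s) : f u = i * f r + j * f s := by
  rw [h.eq, e, map_add, map_smul, map_smul, ← h.eq, ← h.eq]; simp

theorem Ad.neg (h : Ad R f) (r : Φ) : f (R.neg r) = - f r := by
  rw [h.eq, R.rt_neg, map_neg, ← h.eq]

theorem Ad.comp (h : Ad R f) (hw : w ∈ R.Aut) : Ad R (f ∘ w) := fun r => by
  rw [Function.comp_apply, h.eq, ← RS.Aut.lin_rt hw, RS.lin_apply, map_sum]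
  exact sum_congr rfl fun i _ => by rw [map_smul, ← h.eq, zsmul_eq_mul]; rfl

theorem NN_comp (f : Φ → ℝ) (w : Equiv.Perm Φ) : NN (f ∘ w) = NN f :=
  Equiv.sum_comp w fun r => f r ^ 2

theorem Ad.nonneg (h : Ad R f) (hd : Dom R f) {r : Φ} (hr : R.Pos r) : 0 ≤ f r :=
  h r ▸ sum_nonneg fun i _ => mul_nonneg (by exact_mod_cast hr i) (hd i)

theorem Ad.pos_of (h : Ad R f) (hd : Dom R f) {r : Φ} (hr : 0 < f r) : R.Pos r := by
  by_contra h1
  have := h.nonneg hd ((R.pos_neg_iff r).2 h1)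
  rw [h.neg] at this
  linarith

theorem Ad.pos_iff (h : Ad R f) (hd : Dom R f) {r : Φ} :
    0 < f r ↔ R.Pos r ∧ ¬ R.InJ {i | f (R.sim i) = 0} r := by
  refine ⟨fun h1 => ⟨h.pos_of hd h1, fun h2 => h1.ne' (h r ▸ sum_eq_zero fun i _ => ?_)⟩,
    fun ⟨h1, h2⟩ => ?_⟩
  · by_cases h3 : f (R.sim i) = 0
    · rw [h3, mul_zero]
    · rw [h2 i h3, Int.cast_zero, zero_mul]
  · obtain ⟨k, hk, h3⟩ := RS.exists_rt_pos h1 h2
    rw [h r]
    exact sum_pos' (fun i _ => mul_nonneg (by exact_mod_cast h1 i) (hd i))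
      ⟨k, mem_univ _, mul_pos (by exact_mod_cast h3) ((hd k).lt_of_ne' hk)⟩

theorem Ad.nml (h : Ad R f) {r : Φ} (hr : 0 ≤ f r) : R.Nml r {s | 1 ≤ f s} := fun s hs => by
  replace hs : 1 ≤ f s := hs
  refine ⟨fun e => ?_, fun u i j hi hj e => ?_⟩
  · rw [e, h.neg] at hs; linarith
  · have h1 : (1 : ℝ) ≤ j := by exact_mod_cast hj
    show 1 ≤ f u
    rw [h.comb e]
    nlinarith [mul_nonneg (Nat.cast_nonneg i) hr]

theorem Ad.closed (h : Ad R f) : R.Closed {s | 1 ≤ f s} := fun r hr s hs =>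
  (h.nml (zero_le_one.trans hr) s hs).2

theorem Ad.exists_dom (h : Ad R f) : ∃ w ∈ R.W, Dom R (f ∘ w) := by
  obtain ⟨w, hw, hm⟩ := Set.exists_max_image (R.W : Set (Equiv.Perm Φ))
    (fun w => ∑ r with R.Pos r, f (w r)) (Set.toFinite _) ⟨1, R.W.one_mem⟩
  refine ⟨w, hw, fun i => ?_⟩
  have h1 := hm _ (R.W.mul_mem hw (R.s_mem_W i))
  have h2 : R.sim i ∈ univ.filter R.Pos := mem_filter.2 ⟨mem_univ _, R.pos_sim i⟩
  have h3 : ∑ r ∈ (univ.filter R.Pos).erase (R.sim i), f ((w * R.s i) r) =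
      ∑ r ∈ (univ.filter R.Pos).erase (R.sim i), f (w r) := by
    have h4 : ∀ r ∈ (univ.filter R.Pos).erase (R.sim i), R.s i r ∈ (univ.filter R.Pos).erase (R.sim i) :=
      fun r hr => by
        simp only [mem_erase, mem_filter, mem_univ, true_and] at hr ⊢
        refine ⟨fun e => R.not_pos_neg_sim i ?_, R.pos_s hr.2 hr.1⟩
        rw [← R.s_sim, ← e, R.s_s]; exact hr.2
    exact sum_bij' (fun r _ => R.s i r) (fun r _ => R.s i r) h4 h4 (fun _ _ => R.s_s _ _)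
      (fun _ _ => R.s_s _ _) fun _ _ => rfl
  beta_reduce at h1
  rw [← add_sum_erase _ _ h2, ← add_sum_erase _ _ h2, h3, Equiv.Perm.mul_apply, R.s_sim,
    RS.Aut.neg (R.W_le_Aut hw), h.neg] at h1
  show 0 ≤ f (w (R.sim i))
  linarith

theorem Ad.dom_unique (h : Ad R f) (hd : Dom R f) (hw : w ∈ R.W) (hd' : Dom R (f ∘ w)) :
    f ∘ w = f ∧ w ∈ R.WJ {i | f (R.sim i) = 0} := by
  have h' := h.comp (R.W_le_Aut hw)
  have h1 : w⁻¹ ∈ R.WJ {i | f (R.sim i) = 0} := RS.mem_WJ_of_invs (inv_mem hw) fun r h1 h2 =>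
    h'.pos_of hd' (by simpa using (h.pos_iff hd).2 ⟨h1, h2⟩)
  replace h1 := inv_mem_iff.1 h1
  refine ⟨funext fun r => ?_, h1⟩
  rw [Function.comp_apply, h r, h (w r)]
  refine sum_congr rfl fun i _ => ?_
  by_cases h3 : f (R.sim i) = 0
  · rw [h3, mul_zero, mul_zero]
  · rw [RS.rt_of_mem_WJ h1 r h3]

omit [DecidableEq Φ] in
theorem eq_of_NN (h1 : NN f' = NN f) (h2 : NN f ≤ NN fun r => (f r + f' r) / 2) : f' = f := by
  have h3 : ∑ r, (f' r - f r) ^ 2 = 2 * NN f + 2 * NN f' - 4 * NN fun r => (f r + f' r) / 2 := by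
    simp only [NN, mul_sum, ← sum_add_distrib, ← sum_sub_distrib]
    exact sum_congr rfl fun r _ => by ring
  have h4 := (sum_eq_zero_iff_of_nonneg fun r _ => sq_nonneg (f' r - f r)).1
    (le_antisymm (by linarith) (sum_nonneg fun r _ => sq_nonneg _))
  exact funext fun r => sub_eq_zero.1 (pow_eq_zero_iff two_ne_zero |>.1 (h4 r (mem_univ r)))

theorem exists_min {P : Set Φ → Prop} (hP : ∀ T T', T ⊆ T' → P T → P T') (h : Ad R f)
    (h0 : P {r | 1 ≤ f r}) : ∃ f, (Ad R f ∧ P {r | 1 ≤ f r}) ∧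
      ∀ f', Ad R f' ∧ P {r | 1 ≤ f' r} → NN f ≤ NN f' := by
  have h1 : IsClosed {f : Φ → ℝ | Ad R f ∧ P {r | 1 ≤ f r}} := by
    have : {f : Φ → ℝ | Ad R f ∧ P {r | 1 ≤ f r}} =
        (⋂ r, {f | f r = ∑ i, (R.rt r i : ℝ) * f (R.sim i)}) ∩
          ⋃ T ∈ {T | P T}, ⋂ r ∈ T, {f | 1 ≤ f r} := by
      ext f
      simp only [Set.mem_setOf_eq, Set.mem_inter_iff, Set.mem_iInter, Set.mem_iUnion]
      exact and_congr_right fun _ => ⟨fun h => ⟨_, h, fun _ h => h⟩, fun ⟨T, h1, h2⟩ => hP _ _ h2 h1⟩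
    rw [this]
    exact (isClosed_iInter fun r => isClosed_eq (by fun_prop) (by fun_prop)).inter
      ((Set.toFinite _).isClosed_biUnion fun T _ => isClosed_biInter fun r _ =>
        isClosed_le (by fun_prop) (by fun_prop))
  have h2 : Continuous (NN : (Φ → ℝ) → ℝ) := by unfold NN; fun_prop
  obtain ⟨g, hg, hm⟩ := (Metric.isCompact_of_isClosed_isBounded (h1.inter (isClosed_le h2
    (continuous_const (y := NN f)))) ((isBounded_iff_forall_norm_le.2 ⟨√(NN f), fun g hg =>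
      (pi_norm_le_iff_of_nonneg (Real.sqrt_nonneg _)).2 fun r => Real.abs_le_sqrt
        ((single_le_sum (f := fun r => g r ^ 2) (fun r _ => sq_nonneg _) (mem_univ r)).trans
          hg.2)⟩))).exists_isMinOn ⟨f, ⟨h, h0⟩, le_refl (NN f)⟩ h2.continuousOn
  refine ⟨g, hg.1, fun f' hf' => ?_⟩
  by_cases h3 : NN f' ≤ NN f
  · exact hm ⟨hf', h3⟩
  · exact le_trans hg.2 (not_le.1 h3).le

end Root

variable {R : CD ι Φ} {F : Type*} [Field F] {G : Type*} [Group G] (S : St R F G)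
  {D : Subgroup G} {g g' : G} {f f' : Φ → ℝ}

theorem mem_XS_inter {T T' : Set Φ} (hT : R.Closed T) (hT' : R.Closed T') (hp : ∀ r ∈ T, R.Pos r)
    (hp' : ∀ r ∈ T', R.Pos r) {n u : G} {w : Equiv.Perm Φ} (hr : S.Rep n w) (hu : u ∈ S.XS T)
    (hu' : n * u * n⁻¹ ∈ S.XS T') : u ∈ S.XS (T ∩ w ⁻¹' T') := by
  have h0 : ∀ r ∈ {r | R.Pos r}, 0 < RS.htv (R.rt r) := fun r hr => R.ht_pos hr
  obtain ⟨a, ha, b, hb, rfl⟩ := S.exists_mul_of_part R.closed_pos h0 (fun r => R.Pos (w r))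
    (S.XS_mono hp hu)
  have h1 : n * a * n⁻¹ ∈ S.U := hr.conj_mem (fun r hr => hr.2) a ha
  have h6 : n * (a * b) * n⁻¹ ∈ S.U := S.XS_mono hp' hu'
  have h2 : n * b * n⁻¹ = 1 := S.eq_one_of_mem_U_V ((S.U.mul_mem_cancel_left h1).1 (by
    simpa [mul_assoc] using h6)) (hr.conj_mem (fun r hr => hr.2) b hb)
  obtain rfl := conj_eq_one_iff.1 h2
  rw [mul_one] at *
  have h3 : R.Closed {r | r ∈ {r | R.Pos r} ∧ R.Pos (w r)} :=
    R.closed_pos.inter (R.closed_pos.preimage hr.1)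
  have h4 := (S.sep.XS_inf hT h3 (fun r h => h0 r (hp r h)) fun r h => h0 r h.1).le ⟨hu, ha⟩
  have h5 := (S.sep.XS_inf ((hT.inter h3).preimage (inv_mem hr.1)) hT'
    (fun r h => h0 r (by simpa using h.2.2)) fun r h => h0 r (hp' r h)).le
    ⟨hr.conj_mem (fun r hr => by rwa [Set.mem_preimage, ← Equiv.Perm.mul_apply, inv_mul_cancel])
      a h4, hu'⟩
  simpa [mul_assoc] using hr.inv.conj_mem (T' := T ∩ w ⁻¹' T') (fun r hr => ⟨hr.1.1, by
    simpa using hr.2⟩) _ h5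

variable (D g f) in
/-- admissible pairs -/
def Adm : Prop := Ad R.toRS f ∧ ∀ d ∈ D, g⁻¹ * d * g ∈ S.XS {r | 1 ≤ f r}

variable (D g f) in
/-- optimal pairs -/
structure Opt : Prop where
  adm : Adm S D g f
  dom : Dom R.toRS f
  min : ∀ g' f', Adm S D g' f' → NN f ≤ NN f'

theorem exists_opt (h : ∀ d ∈ D, g⁻¹ * d * g ∈ S.U) : ∃ g f, Opt S D g f := by
  obtain ⟨f, ⟨h1, g, h2⟩, h3⟩ := exists_min (R := R.toRS)
    (P := fun T => ∃ g, ∀ d ∈ D, g⁻¹ * d * g ∈ S.XS T)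
    (fun T T' hT ⟨g, hg⟩ => ⟨g, fun d hd => S.XS_mono hT (hg d hd)⟩) (f := fun r => R.ht r)
    (fun r => by simp [R.ht_sim, R.ht_def r]) ⟨g, fun d hd => S.XS_mono (fun r hr => by
      show (1 : ℝ) ≤ R.ht r
      exact_mod_cast R.ht_pos hr) (h d hd)⟩
  obtain ⟨w, hw, h4⟩ := h1.exists_dom
  obtain ⟨n, -, hn⟩ := S.exists_N_rep hw
  refine ⟨g * n, f ∘ w, ⟨h1.comp hn.1, fun d hd => ?_⟩, h4, fun g' f' h => ?_⟩
  · simpa [mul_assoc] using hn.inv.conj_mem (T' := {r | 1 ≤ (f ∘ w) r}) (fun r hr => by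
      simpa using hr) _ (h2 d hd)
  · rw [NN_comp]; exact h3 f' ⟨h.1, g', h.2⟩

variable {S}

theorem B_le_nrm (h : Ad R.toRS f) (hd : Dom R.toRS f) :
    S.B ≤ Subgroup.normalizer (S.XS {r | 1 ≤ f r} : Set G) :=
  sup_le (S.XS_le_normalizer fun _ hr => h.nml (h.nonneg hd hr)) (S.H_le_normalizer _)

theorem Opt.unique (h : Opt S D g f) (h' : Opt S D g' f') (hg : g'⁻¹ * g ∈ S.Gr) :
    f' = f ∧ g'⁻¹ * g ∈ S.PJ {i | f (R.sim i) = 0} := by
  obtain ⟨w, hw, hc⟩ := S.mem_Gr_iff.1 hg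
  obtain ⟨b, hb, n, hn, hr, b', hb', e⟩ := id hc
  rw [S.BK_univ] at hb hb'
  have h1 := h'.adm.1.comp hr.1
  have h2 : Adm S D (g * b'⁻¹) fun r => (f r + (f' ∘ w) r) / 2 := by
    refine ⟨fun r => ?_, fun d hd => S.XS_mono (fun r hr => ?_) (mem_XS_inter S h.adm.1.closed
      h'.adm.1.closed (fun r hr => h.adm.1.pos_of h.dom (one_pos.trans_le hr))
      (fun r hr => h'.adm.1.pos_of h'.dom (one_pos.trans_le hr)) hr ?_ ?_)⟩
    · beta_reduce
      rw [h.adm.1 r, h1 r, ← sum_add_distrib, sum_div]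
      exact sum_congr rfl fun i _ => by ring
    · have h3 : 1 ≤ f r := hr.1
      have h4 : 1 ≤ f' (w r) := hr.2
      show 1 ≤ (f r + f' (w r)) / 2
      linarith
    · simpa [mul_assoc] using (Subgroup.mem_normalizer_iff.1 (B_le_nrm h.adm.1 h.dom hb') _).1
        (h.adm.2 d hd)
    · convert (Subgroup.mem_normalizer_iff.1 (inv_mem (B_le_nrm h'.adm.1 h'.dom hb)) _).1
        (h'.adm.2 d hd) using 1
      rw [eq_mul_of_inv_mul_eq e]
      group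
  have h3 := eq_of_NN ((NN_comp f' w).trans (le_antisymm (h'.min _ _ h.adm) (h.min _ _ h'.adm)))
    (h.min _ _ h2)
  obtain ⟨h4, h5⟩ := h'.adm.1.dom_unique h'.dom hw (h3 ▸ h.dom)
  have h6 : f' = f := h4.symm.trans h3
  exact ⟨h6, S.mem_PJ_iff.2 ⟨w, h6 ▸ h5, hc⟩⟩

theorem Opt.of_nrm (h : Opt S D g f) {x : G} (hx : x ∈ Subgroup.normalizer (D : Set G)) :
    Opt S D (x * g) f :=
  ⟨⟨h.adm.1, fun d hd => by
    simpa [mul_assoc] using h.adm.2 _ ((Subgroup.mem_normalizer_iff''.1 hx d).1 hd)⟩, h.dom, h.min⟩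

theorem Opt.mem_UJ (h : Opt S D g f) {d : G} (hd : d ∈ D) :
    g⁻¹ * d * g ∈ S.UJ {i | f (R.sim i) = 0} :=
  S.XS_mono (fun _ hr => (h.adm.1.pos_iff h.dom).1 (one_pos.trans_le hr)) (h.adm.2 d hd)

theorem Opt.mem_PJ (h : Opt S D g f) (hG : S.Gr = ⊤) {x : G}
    (hx : x ∈ Subgroup.normalizer (D : Set G)) : g⁻¹ * x * g ∈ S.PJ {i | f (R.sim i) = 0} := by
  simpa [mul_assoc] using ((h.of_nrm hx).unique h (hG ▸ trivial)).2

theorem Opt.proper (h : Opt S D g f) (h0 : D ≠ ⊥) : ∃ i, i ∉ {i | f (R.sim i) = 0} := by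
  by_contra! h1
  refine h0 (eq_bot_iff.2 fun d hd => ?_)
  have := h.mem_UJ hd
  rwa [Set.eq_univ_of_forall h1, S.UJ_univ, Subgroup.mem_bot, ← inv_inv g, inv_inv g⁻¹,
    conj_eq_one_iff] at this

variable (S) in
/-- **Borel–Tits** -/
theorem borel_tits [Fintype F] (hG : S.Gr = ⊤) (p : ℕ) [Fact p.Prime] [CharP F p]
    (hD : IsPGroup p D) (h0 : D ≠ ⊥) : ∃ g : G, ∃ J : Set ι, (∃ i, i ∉ J) ∧
      (∀ x ∈ Subgroup.normalizer (D : Set G), g⁻¹ * x * g ∈ S.PJ J) ∧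
      ∀ d ∈ D, g⁻¹ * d * g ∈ S.UJ J := by
  obtain ⟨y, hy⟩ := S.exists_conj_mem_U hG p hD
  obtain ⟨g, f, h⟩ := exists_opt S hy
  exact ⟨g, _, h.proper h0, fun _ => h.mem_PJ hG, fun _ => h.mem_UJ⟩

end H20.BT
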