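import Cfsg.Agent.H20.Wed2

/-! The number of simple modules of `e ℂ[G] e` in terms of structure constants. -/

set_option autoImplicit false
set_option linter.unusedSectionVars false

namespace H20.Hk

open MonoidAlgebra Cfsg H17 Finset Matrix Polynomial
open H19 (ev fB om ZZ)

variable {ι : Type*} [Fintype ι] [DecidableEq ι]

section
variable {A A' : Type*} [CommRing A] [CommRing A'] (c : ι → ι → ι → A)

/-- Gram matrix of the regular trace form -/
def gm : Matrix ι ι A := Matrix.of fun i j => ∑ k, c i j k * ∑ l, c k l l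

/-- numerator of the trace of the projection onto the centre -/
def pp : A := ∑ i, ∑ k, (gm c).adjugate i k * ∑ j, ∑ l, c i j l * c l k j

theorem map_gm (f : A →+* A') : f.mapMatrix (gm c) = gm fun i j k => f (c i j k) := by
  ext; simp [gm]

theorem map_det_gm (f : A →+* A') : f (gm c).det = (gm fun i j k => f (c i j k)).det := by
  rw [f.map_det, map_gm]

theorem map_pp (f : A →+* A') : f (pp c) = pp fun i j k => f (c i j k) := by
  simp only [pp, ← map_gm, ← RingHom.map_adjugate, map_sum, map_mul]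
  rfl

end

theorem const_of_infinite (c : ι → ι → ι → ℂ[X]) {T : Set ℂ} (hT : T.Infinite)
    (h : ∀ a ∈ T, ∃ n ≤ Fintype.card ι, pp (fun i j k => (c i j k).eval a) =
      n * (gm fun i j k => (c i j k).eval a).det) : ∃ n : ℕ, ∀ a,
      pp (fun i j k => (c i j k).eval a) = n * (gm fun i j k => (c i j k).eval a).det := by
  have h1 : ∀ (n : ℕ) a, (pp c - n * (gm c).det).eval a = pp (fun i j k => (c i j k).eval a) -
      n * (gm fun i j k => (c i j k).eval a).det := fun n a => by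
    rw [eval_sub, eval_mul, eval_natCast]
    exact congrArg₂ (fun x y : ℂ => x - n * y) (map_pp c (evalRingHom a)) (map_det_gm c (evalRingHom a))
  obtain ⟨n, -, hn⟩ := prod_eq_zero_iff.1 (eq_zero_of_infinite_isRoot
    (∏ n ∈ range (Fintype.card ι + 1), (pp c - (n : ℂ[X]) * (gm c).det)) (hT.mono fun a ha => by
      obtain ⟨n, hn, e⟩ := h a ha
      exact (eval_prod _ _ _).trans (prod_eq_zero (mem_range.2 (Nat.lt_succ_of_le hn))
        (by rw [h1, e, sub_self]))))
  exact ⟨n, fun a => by rw [← sub_eq_zero, ← h1, hn, eval_zero]⟩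

theorem trace_of_span {V : Type*} [AddCommGroup V] [Module ℂ V] [FiniteDimensional ℂ V] {b : ι → V}
    (hb : LinearIndependent ℂ b) (T : V →ₗ[ℂ] V) (h : ∀ x, T x ∈ Submodule.span ℂ (Set.range b))
    {m : ι → ι → ℂ} (hm : ∀ j, T (b j) = ∑ l, m j l • b l) : LinearMap.trace ℂ V T = ∑ j, m j j := by
  rw [← LinearMap.trace_restrict_eq_of_forall_mem _ T h,
    LinearMap.trace_eq_matrix_trace ℂ (Module.Basis.span hb), Matrix.trace]
  refine sum_congr rfl fun j _ => ?_
  rw [diag_apply, LinearMap.toMatrix_apply, show T.restrict (fun x _ => h x) (Module.Basis.span hb j) =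
    ∑ l, m j l • Module.Basis.span hb l from Subtype.ext (by simp [hm])]
  simp only [map_sum, map_smul, Module.Basis.repr_self]
  simp [Finsupp.single_apply]

variable {G : Type*} [Group G] [Finite G] {e : ℂ[G]}

theorem ev_mul_eq_zero (he : e * e = e) {χ : G → ℂ} (hχ : IsCharacter G χ) (h : ev χ e = 0)
    (y : ℂ[G]) : ev χ (e * y) = 0 := by
  obtain ⟨n, ρ, rfl⟩ := hχ
  rw [H19.ev_character] at h ⊢
  rw [map_mul, LinearMap.IsIdempotentElem.eq_zero_of_trace_eq_zero
    (show IsIdempotentElem (ρ.asAlgebraHom e) from (map_mul _ _ _).symm.trans (congrArg _ he)) h,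
    zero_mul, map_zero]

theorem eq_zero_of_ev {x : ℂ[G]} (h : ∀ (χ : IrrCharacter G) y, ev (χ : G → ℂ) (x * y) = 0) :
    x = 0 := H19.ga_ext fun g => by
  have := H19.sum_deg_mul_ev (x * single g⁻¹ 1)
  simp only [h, mul_zero, sum_const_zero] at this
  simpa [coeff_mul_single_apply, Nat.card_pos.ne'] using this

theorem sum_ev_fB (χ : IrrCharacter G) (y : ℂ[G]) (f : IrrCharacter G → ℂ) :
    ∑ ψ : IrrCharacter G, ev (ψ : G → ℂ) (fB {χ} * y) * f ψ = ev (χ : G → ℂ) y * f χ := by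
  rw [Fintype.sum_eq_single χ, H19.ev_fB_mul_of_mem (Set.mem_singleton _)]
  exact fun ψ h => by rw [H19.ev_fB_mul_of_not_mem (A := {χ}) h, zero_mul]

theorem count (he : e * e = e) {b : ι → ℂ[G]} (h1 : ∀ i, e * b i = b i) (h2 : ∀ i, b i * e = b i)
    (hb : LinearIndependent ℂ b) (hs : ∀ y, e * y * e ∈ Submodule.span ℂ (Set.range b))
    {c : ι → ι → ι → ℂ} (hc : ∀ i j, b i * b j = ∑ k, c i j k • b k) :
    (gm c).det ≠ 0 ∧ Nat.card {χ : IrrCharacter G // ev (χ : G → ℂ) e ≠ 0} ≤ Fintype.card ι ∧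
      pp c = Nat.card {χ : IrrCharacter G // ev (χ : G → ℂ) e ≠ 0} * (gm c).det := by
  classical
  have h3 : ∀ x y, e * x = x → y * e = y → ∀ z, LinearMap.mulLeftRight ℂ (x, y) z ∈
      Submodule.span ℂ (Set.range b) := fun x y hx hy z => by
    have := hs (x * z * y)
    rwa [← mul_assoc, ← mul_assoc, hx, mul_assoc _ y, hy] at this
  have h4 : ∀ (x : ι → ℂ) j, ∑ i, x i * gm c i j = ∑ χ : IrrCharacter G,
      ev (χ : G → ℂ) ((∑ i, x i • b i) * b j) * ev (χ : G → ℂ) e := fun x j => by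
    simp only [sum_mul, smul_mul_assoc, map_sum, map_smul, smul_eq_mul, mul_assoc]
    rw [sum_comm]
    refine sum_congr rfl fun i _ => ?_
    rw [← mul_sum]
    simp only [hc, map_sum, map_smul, smul_eq_mul, sum_mul, mul_assoc]
    rw [sum_comm]
    refine congrArg _ (sum_congr rfl fun k _ => ?_)
    rw [← mul_sum, ← trace_mulLeftRight, trace_of_span hb _ (h3 _ _ (h1 k) he) fun j => by
      rw [LinearMap.mulLeftRight_apply, mul_assoc, h2, hc]]
  have h5 : ∀ χ : {χ : IrrCharacter G // ev (χ : G → ℂ) e ≠ 0}, ∃ a : ι → ℂ,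
      ∑ i, a i • b i = fB {χ.1} * ((ev (χ : G → ℂ) e)⁻¹ • e) := fun χ => by
    refine (Submodule.mem_span_range_iff_exists_fun ℂ).1 ?_
    have := hs (fB {χ.1})
    rw [← H19.ZZ_comm (H19.fB_mem_ZZ _), mul_assoc, he] at this
    rw [mul_smul_comm]; exact Submodule.smul_mem _ _ this
  choose a ha using h5
  have h6 : ∀ χ, a χ ᵥ* gm c = fun j => ev (χ.1 : G → ℂ) (b j) := fun χ => funext fun j => by
    rw [vecMul, dotProduct, h4, ha, mul_assoc, sum_ev_fB, smul_mul_assoc, h1, map_smul, smul_eq_mul,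
      mul_right_comm, inv_mul_cancel₀ χ.2, one_mul]
  have h7 : ∀ χ (ψ : IrrCharacter G), (a χ ⬝ᵥ fun j => ev (ψ : G → ℂ) (b j)) =
      ev (ψ : G → ℂ) (fB {χ.1} * ((ev (χ : G → ℂ) e)⁻¹ • e)) := fun χ ψ => by
    simp [← ha, dotProduct]
  have h8 : ∀ χ, (a χ ⬝ᵥ fun j => ev (χ.1 : G → ℂ) (b j)) = 1 := fun χ => by
    rw [h7, H19.ev_fB_mul_of_mem (Set.mem_singleton _), map_smul, smul_eq_mul, inv_mul_cancel₀ χ.2]
  refine ⟨fun h => ?_, ?_, ?_⟩
  · obtain ⟨x, h0, hx⟩ := exists_vecMul_eq_zero_iff.2 h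
    obtain ⟨y, hy⟩ : ∃ y, y = ∑ i, x i • b i := ⟨_, rfl⟩
    have h9 : e * y = y := by simp [hy, mul_sum, h1]
    have h10 : y * e = y := by simp [hy, sum_mul, h2]
    refine h0 (funext (Fintype.linearIndependent_iff.1 hb x (hy ▸ eq_zero_of_ev fun χ z => ?_)))
    by_cases hχ : ev (χ : G → ℂ) e = 0
    · rw [← h9, mul_assoc, ev_mul_eq_zero he χ.2.isCharacter hχ]
    obtain ⟨m, hm⟩ := (Submodule.mem_span_range_iff_exists_fun ℂ).1 (hs (fB {χ} * z))
    have h11 : ∑ ψ : IrrCharacter G, ev (ψ : G → ℂ) (y * ∑ j, m j • b j) * ev (ψ : G → ℂ) e = 0 := by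
      simp only [mul_sum, mul_smul_comm, map_sum, map_smul, smul_eq_mul, sum_mul, mul_assoc]
      rw [sum_comm]
      refine sum_eq_zero fun j _ => ?_
      rw [← mul_sum, hy, ← h4, show ∑ i, x i * gm c i j = 0 from congrFun hx j, mul_zero]
    rw [hm, ← mul_assoc, ← mul_assoc, h10, ← mul_assoc, ← H19.ZZ_comm (H19.fB_mem_ZZ _), mul_assoc,
      mul_assoc, sum_ev_fB, ← mul_assoc, H19.ev_mul_comm (H19.irr_class χ), ← mul_assoc, h9] at h11
    exact (mul_eq_zero.1 h11).resolve_right hχ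
  · rw [Nat.card_eq_fintype_card, ← Module.finrank_fintype_fun_eq_card ℂ (η := ι)]
    refine (LinearIndependent.of_pairwise_dual_eq_zero_one a (fun χ => (dotProductBilin ℂ ℂ).flip
      fun j => ev (χ.1 : G → ℂ) (b j)) (fun χ ψ h => ?_) h8).fintype_card_le_finrank
    exact (h7 ψ χ.1).trans (H19.ev_fB_mul_of_not_mem (A := {ψ.1}) (fun e => h (Subtype.ext e)) _)
  · have h9 : pp c = ∑ χ : IrrCharacter G, (fun j => ev (χ : G → ℂ) (b j)) ⬝ᵥ
        ((gm c).adjugate *ᵥ fun j => ev (χ : G → ℂ) (b j)) := by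
      simp only [pp, dotProduct, mulVec, mul_sum]
      refine .trans (sum_congr rfl fun i _ => ?_) sum_comm
      refine .trans (sum_congr rfl fun k _ => ?_) sum_comm
      simp only [← mul_sum, mul_left_comm _ ((gm c).adjugate i k)]
      rw [← trace_mulLeftRight, trace_of_span hb _ (h3 _ _ (h1 i) (h2 k))
        (m := fun j j' => ∑ l, c i j l * c l k j') fun j => by
          simp only [LinearMap.mulLeftRight_apply, hc, sum_mul, smul_mul_assoc, smul_sum, sum_smul,
            smul_smul]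
          exact sum_comm]
    rw [h9, ← Fintype.sum_subtype_add_sum_subtype fun χ : IrrCharacter G => ev (χ : G → ℂ) e ≠ 0,
      Nat.card_eq_fintype_card, ← card_univ, ← nsmul_eq_mul, ← sum_const, ← add_zero (∑ _, det _)]
    refine congrArg₂ _ (sum_congr rfl fun χ _ => ?_) (sum_eq_zero fun χ _ => sum_eq_zero fun j _ => ?_)
    · conv_lhs => arg 1; rw [← h6]
      rw [← dotProduct_mulVec, mulVec_mulVec, mul_adjugate, smul_mulVec, one_mulVec, dotProduct_smul,
        h8, smul_eq_mul, mul_one]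
    · beta_reduce
      rw [← h1, ev_mul_eq_zero he χ.1.2.isCharacter (not_not.1 χ.2), zero_mul]

end H20.Hk
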