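import Cfsg.Agent.H20.Hk1
import Cfsg.Agent.H20.CR2
import Cfsg.Agent.H20.Stn

/-! The Hecke algebra of a Chevalley group and the number of principal series constituents. -/

set_option autoImplicit false
set_option linter.unusedSectionVars false

namespace H20.Hk

open MonoidAlgebra Cfsg H17 Finset Polynomial H24 H24.St0
open H19 (ev)
open scoped Classical

variable {ι Φ : Type} [Fintype ι] [DecidableEq ι] [Fintype Φ] [DecidableEq Φ]

section W
variable (R : RS ι Φ)

/-- left multiplication by a generator -/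
noncomputable def Ls (i : ι) (m k : R.W) : ℂ[X] :=
  if R.Pos ((m : Equiv.Perm Φ)⁻¹ (R.sim i)) then (if k = R.sW i * m then 1 else 0)
  else (if k = m then X - 1 else 0) + if k = R.sW i * m then X else 0

/-- left multiplication by a word -/
noncomputable def cw : List ι → R.W → R.W → ℂ[X]
  | [], v, k => if k = v then 1 else 0
  | i :: l, v, k => ∑ m, cw l v m * Ls R i m k

/-- reduced words -/
def Red : List ι → Prop
  | [] => True
  | i :: l => Red l ∧ R.Pos ((R.wd l)⁻¹ (R.sim i))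

theorem exists_red (w : R.W) : ∃ l, Red R l ∧ R.wd l = w :=
  RS.W_induction (fun w => ∃ l, Red R l ∧ R.wd l = w) ⟨[], trivial, rfl⟩ (by
    rintro i _ - hp ⟨l, hl, rfl⟩
    exact ⟨i :: l, ⟨hl, hp⟩, R.wd_cons i l⟩) w w.2

/-- generic structure constants -/
noncomputable def cc (u v k : R.W) : ℂ[X] := cw R (exists_red R u).choose v k

variable {R} {A : Type*} [Ring A] [Algebra ℂ A] {a : ℂ} {b : R.W → A}

/-- the relations of Iwahori -/
structure Rel (a : ℂ) (b : R.W → A) : Prop where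
  one : ∀ v, b 1 * b v = b v
  pos : ∀ i (w : R.W), R.Pos ((w : Equiv.Perm Φ)⁻¹ (R.sim i)) → b (R.sW i) * b w = b (R.sW i * w)
  sq : ∀ i, b (R.sW i) * b (R.sW i) = (a - 1) • b (R.sW i) + a • b 1

theorem sW_sW (i : ι) (m : R.W) : R.sW i * (R.sW i * m) = m := by
  rw [← mul_assoc, show R.sW i * R.sW i = 1 from Subtype.ext (R.s_mul_s i), one_mul]

theorem Rel.gen (h : Rel a b) (i : ι) (m : R.W) :
    b (R.sW i) * b m = ∑ k, (Ls R i m k).eval a • b k := by
  by_cases hp : R.Pos ((m : Equiv.Perm Φ)⁻¹ (R.sim i))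
  · simp only [Ls, if_pos hp]
    simp [apply_ite (eval a), h.pos i m hp]
  have h1 := h.pos i (R.sW i * m) (by
    change R.Pos ((R.s i * m)⁻¹ _)
    rwa [R.inv_s_mul_sim _ (R.W_le_Aut m.2), R.pos_neg_iff])
  rw [sW_sW] at h1
  conv_lhs => rw [← h1, ← mul_assoc, h.sq, add_mul, smul_mul_assoc, smul_mul_assoc, h1, h.one]
  simp only [Ls, if_neg hp]
  simp [apply_ite (eval a), add_smul, sum_add_distrib]

theorem Rel.mul (h : Rel a b) (u v : R.W) : b u * b v = ∑ k, (cc R u v k).eval a • b k := by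
  have h1 : ∀ l, Red R l → b ⟨_, R.wd_mem_W l⟩ * b v = ∑ k, (cw R l v k).eval a • b k := by
    intro l hl
    induction l with
    | nil => exact (h.one v).trans (by simp [cw, apply_ite (eval a)])
    | cons i l ih =>
      rw [show (⟨_, R.wd_mem_W (i :: l)⟩ : R.W) = R.sW i * ⟨_, R.wd_mem_W l⟩ from
        Subtype.ext (R.wd_cons i l), ← h.pos i _ hl.2, mul_assoc, ih hl.1]
      simp only [mul_sum, mul_smul_comm, h.gen, cw, eval_finset_sum, eval_mul, smul_sum, sum_smul,
        smul_smul]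
      exact sum_comm
  obtain ⟨h2, h3⟩ := (exists_red R u).choose_spec
  refine .trans ?_ (h1 _ h2)
  simp only [h3]

variable (R) in
theorem count_W : (gm fun i j k => (cc R i j k).eval 1).det ≠ 0 ∧
    pp (fun i j k => (cc R i j k).eval 1) =
      Nat.card (ConjClasses R.W) * (gm fun i j k => (cc R i j k).eval 1).det := by
  obtain ⟨h1, -, h2⟩ := count (G := R.W) (one_mul 1) (b := fun w => single w 1) (fun _ => one_mul _)
    (fun _ => mul_one _) (LinearIndependent.of_pairwise_dual_eq_zero_one _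
      (fun w => ev fun g => if g = w then 1 else 0) (fun v w h => by simp [H19.ev_single, h.symm])
      fun v => by simp [H19.ev_single])
    (fun y => by
      rw [one_mul, mul_one, H19.eq_sum_single y]
      exact Submodule.sum_smul_mem _ _ fun g _ => Submodule.subset_span ⟨g, rfl⟩)
    (Rel.mul (a := 1) ⟨fun v => one_mul _, fun i w _ => (sng_mul _ _).symm, fun i => by
      rw [← sng_mul, ← mul_one (R.sW i * R.sW i), mul_assoc, sW_sW]; simp⟩)
  refine ⟨h1, h2.trans ?_⟩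
  rw [← card_irr, Nat.card_congr (Equiv.subtypeUnivEquiv fun χ => by
    rw [H19.ev_one]; exact H19.irr_one_ne_zero χ)]

end W

section E
variable {G : Type*} [Group G] [Finite G] {B : Subgroup G} {g : G}

/-- the idempotent of a subgroup -/
noncomputable def ee (B : Subgroup G) : ℂ[G] := (Nat.card B : ℂ)⁻¹ • sgS ℂ B

theorem ee_mul {m : ℂ[G]} (h : ∀ d ∈ B, single d 1 * m = m) : ee B * m = m := by
  rw [ee, smul_mul_assoc, sgS_mul_of_fixed h, ← Nat.cast_smul_eq_nsmul ℂ, smul_smul,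
    inv_mul_cancel₀ card_ne_zero_complex, one_smul]

theorem sng_ee (h : g ∈ B) : single g 1 * ee B = ee B := by
  rw [ee, mul_smul_comm, single_mul_sgS h]

theorem ee_sng (h : g ∈ B) : ee B * single g 1 = ee B := by
  rw [ee, smul_mul_assoc, sgS_mul_single h]

theorem ee_ee : ee B * ee B = ee B := ee_mul fun _ => sng_ee

theorem map_ee {V : Type*} [AddCommGroup V] [Module ℂ V] (T : ℂ[G] →ₗ[ℂ] V) {v : V}
    (h : ∀ d ∈ B, T (single d 1) = v) : T (ee B) = v := by
  have := Fintype.ofFinite B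
  rw [ee, sgS_eq_sum, map_smul, map_sum, sum_congr rfl fun (d : B) _ => h d d.2, sum_const, card_univ,
    ← Nat.card_eq_fintype_card, ← Nat.cast_smul_eq_nsmul ℂ, smul_smul,
    inv_mul_cancel₀ card_ne_zero_complex, one_smul]

variable (B) in
/-- double coset average -/
noncomputable def EE (g : G) : ℂ[G] := ee B * single g 1 * ee B

theorem EE_eq {a c : G} (ha : a ∈ B) (hc : c ∈ B) (g : G) : EE B (a * g * c) = EE B g := by
  rw [EE, sng_mul, sng_mul, ← mul_assoc, ← mul_assoc, ee_sng ha, mul_assoc _ _ (ee B), sng_ee hc, EE]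

theorem EE_one : EE B 1 = ee B := by rw [EE, ← one_def, mul_one, ee_ee]

theorem ee_EE (g : G) : ee B * EE B g = EE B g := by rw [EE, ← mul_assoc, ← mul_assoc, ee_ee]

theorem EE_ee (g : G) : EE B g * ee B = EE B g := by rw [EE, mul_assoc, ee_ee]

theorem EE_mul {x y : G} {v : ℂ[G]} (h : ∀ d ∈ B, EE B (x * d * y) = v) : EE B x * EE B y = v := by
  refine .trans ?_ (map_ee (B := B) (LinearMap.mulLeftRight ℂ (ee B * single x 1, single y 1 * ee B))
    fun d hd => by
      rw [← h d hd, LinearMap.mulLeftRight_apply, EE, sng_mul, sng_mul]; simp only [mul_assoc])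
  simp only [LinearMap.mulLeftRight_apply, EE, mul_assoc, ← mul_assoc (ee B) (ee B), ee_ee]

theorem ev_EE {f : G → ℂ} (h : ∀ a ∈ B, ∀ c ∈ B, f (a * g * c) = f g) : ev f (EE B g) = f g :=
  map_ee (ev f ∘ₗ LinearMap.mulLeft ℂ (ee B * single g 1)) fun c hc => (congrArg (ev f)
    (mul_assoc _ _ _)).trans <| map_ee (ev f ∘ₗ LinearMap.mulRight ℂ (single g 1 * single c 1))
      fun a ha => by
        simp only [LinearMap.comp_apply, LinearMap.mulRight_apply, ← sng_mul, H19.ev_single, one_mul,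
          ← mul_assoc, h a ha c hc]

theorem constituent_iff (B : Subgroup G) (χ : IrrCharacter G) : (∃ φ, IsCharacter G φ ∧
    fixedPointCharacter B = (χ : G → ℂ) + φ) ↔ ev (χ : G → ℂ) (ee B) ≠ 0 := by
  have := Fintype.ofFinite G
  have h1 : fixedPointCharacter B = indFun B fun _ => 1 := (indFun_one_eq_perm B).symm
  have h2 : ev (χ : G → ℂ) (ee B) = classInner (χ : G → ℂ) (fixedPointCharacter B) := by
    rw [h1, frobenius_reciprocity' _ χ.2.isClassFunction, classInner_one_right, ee, sgS_eq_sum]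
    simp [H19.ev_single]
  rw [h2]
  refine ⟨fun ⟨φ, hφ, e⟩ => ?_, fun h => ⟨_, (h1 ▸ isCharacter_one.ind).sub_irr χ.2
    (mt classInner_eq_zero_comm.1 h), by simp⟩⟩
  obtain ⟨n, hn⟩ := χ.2.isCharacter.inner_nat hφ
  rw [e, classInner_add_right, χ.2.inner_self, hn]
  exact_mod_cast (by omega : 1 + n ≠ 0)

end E

variable {R : CD ι Φ} {F : Type*} [Field F] [Fintype F] {G : Type*} [Group G] [Finite G]
  (S : St R F G)

theorem EE_sq (i : ι) {q : ℂ} (hq : q = Fintype.card F) :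
    (q • EE S.B (S.n (R.sim i) 1)) * (q • EE S.B (S.n (R.sim i) 1)) =
      (q - 1) • q • EE S.B (S.n (R.sim i) 1) + q • ee S.B := by
  obtain ⟨τ, hτ⟩ : ∃ τ, τ = ∑ a, single (S.x (R.sim i) a * S.n (R.sim i) 1) (1 : ℂ) * ee S.B := ⟨_, rfl⟩
  have h1 : ee S.B * τ = τ := ee_mul fun d hd => by
    obtain ⟨u, hu, h, hh, rfl⟩ := S.mem_B_iff.1 hd
    obtain ⟨c, hc⟩ := CR.exists_split S i hu
    obtain ⟨m, hm, h2⟩ := (S.rep_of_mem_H hh).exists_conj (R.sim i)
    rw [hτ, mul_sum]
    refine Fintype.sum_equiv ((Equiv.mulLeft₀ m hm).trans (Equiv.addLeft c)) _ _ fun a => ?_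
    obtain ⟨v, hv, e⟩ := hc (m * a)
    rw [← mul_assoc, ← sng_mul, show u * h * (S.x (R.sim i) a * S.n (R.sim i) 1) =
      u * (h * S.x (R.sim i) a * h⁻¹ * S.n (R.sim i) 1) * ((S.n (R.sim i) 1)⁻¹ * h * S.n (R.sim i) 1)
      by group, h2, Equiv.Perm.one_apply, e, mul_assoc _ v, sng_mul _ (v * _), mul_assoc,
      sng_ee (mul_mem (S.U_le_B hv) (S.H_le_B (S.conj_mem_H' (S.n_mem one_ne_zero) hh)))]
    rfl
  have h2 : ∀ g, EE S.B g * τ = ∑ a, EE S.B (g * (S.x (R.sim i) a * S.n (R.sim i) 1)) := fun g => by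
    rw [EE, mul_assoc, h1, hτ, mul_sum]
    simp only [EE, sng_mul g, mul_assoc]
  have h3 : τ = q • EE S.B (S.n (R.sim i) 1) := by
    rw [← h1, ← EE_one, h2, sum_congr rfl (g := fun _ => EE S.B (S.n (R.sim i) 1)) fun a _ => by
      simpa using EE_eq (S.x_mem_B (R.pos_sim i) a) (one_mem _) (S.n (R.sim i) 1), sum_const,
      card_univ, hq, Nat.cast_smul_eq_nsmul]
  have h4 := S.H_le_B (S.n_mul_n_mem (R.sim i) one_ne_zero one_ne_zero)
  rw [smul_mul_assoc, ← h3, h2, CR.sum_units, S.x_zero, one_mul, ← mul_one (S.n _ 1 * _),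
    ← mul_one (S.n _ 1 * _ * _), EE_eq h4 (one_mem _), EE_one, sum_congr rfl
      (g := fun _ => EE S.B (S.n (R.sim i) 1)) fun a _ => ?_, sum_const, card_univ, smul_add, add_comm,
    h3, smul_comm, ← Nat.cast_smul_eq_nsmul ℂ, ← Nat.card_eq_fintype_card, Nat.card_units,
    Nat.cast_pred Nat.card_pos, Nat.card_eq_fintype_card, hq]
  rw [← EE_eq (mul_mem (mul_mem h4 (S.x_mem_B (R.pos_sim i) (-(a : F)⁻¹))) (S.H_le_B (S.h_mem
    (r := R.sim i) (inv_ne_zero a.ne_zero)))) (S.x_mem_B (R.pos_sim i) (-(a : F)⁻¹)) (S.n _ 1)]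
  congr 1
  simp only [mul_assoc]
  simpa only [mul_assoc, mul_inv_cancel_left] using congrArg (S.n (R.sim i) 1 * S.n (R.sim i) 1 * ·)
    (CR.n_inv_conj S (R.sim i) a)

theorem count_G (hG : S.Gr = ⊤) : (gm fun i j k => (cc R.toRS i j k).eval (Fintype.card F : ℂ)).det ≠ 0 ∧
    Nat.card {χ : IrrCharacter G // ev (χ : G → ℂ) (ee S.B) ≠ 0} ≤ Fintype.card R.W ∧
    pp (fun i j k => (cc R.toRS i j k).eval (Fintype.card F : ℂ)) =
      Nat.card {χ : IrrCharacter G // ev (χ : G → ℂ) (ee S.B) ≠ 0} *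
        (gm fun i j k => (cc R.toRS i j k).eval (Fintype.card F : ℂ)).det := by
  obtain ⟨q, hq⟩ : ∃ q : ℂ, q = Fintype.card F := ⟨_, rfl⟩
  have q0 : q ≠ 0 := hq ▸ Nat.cast_ne_zero.2 Fintype.card_ne_zero
  choose n hn hr using fun w : R.W => S.exists_N_rep w.2
  have h1 : ∀ (w : R.W) g, g ∈ S.Cell Set.univ w → EE S.B g = EE S.B (n w) := fun w g hg => by
    obtain ⟨a, ha, c, hc, rfl⟩ := S.exists_of_mem_cell hg (hn w) (hr w)
    exact EE_eq (S.BK_univ ▸ ha) (S.BK_univ ▸ hc) _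
  have h2 : EE S.B (n 1) = ee S.B := by rw [← h1 1 1 (mem_cell_of_rep _ (one_mem _) rep_one), EE_one]
  have h3 : ∀ i, q ^ R.N (R.sW i) • EE S.B (n (R.sW i)) = q • EE S.B (S.n (R.sim i) 1) := fun i => by
    rw [h1 (R.sW i) _ (mem_cell_of_rep _ (S.n_mem one_ne_zero) (S.n_rep_s i one_ne_zero)),
      show R.N (R.sW i) = 1 from show R.N (R.s i) = 1 by
        simpa [RS.N_one] using RS.N_s_mul R.Aut.one_mem (R.pos_sim i), pow_one]
  rw [← hq]
  refine count ee_ee (b := fun w : R.W => q ^ R.N w • EE S.B (n w)) (fun w => by rw [mul_smul_comm, ee_EE])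
    (fun w => by rw [smul_mul_assoc, EE_ee]) (LinearIndependent.of_pairwise_dual_eq_zero_one _
      (fun w : R.W => (q ^ R.N w)⁻¹ • ev fun g => if S.wc hG g = w then 1 else 0) (fun v w h => ?_)
      fun v => ?_) (fun y => ?_) (Rel.mul ⟨fun v => ?_, fun i w hp => ?_, fun i => ?_⟩)
  · beta_reduce
    rw [map_smul, LinearMap.smul_apply, ev_EE fun a ha c hc => by
      rw [S.wc_mul_B hG _ hc, S.wc_B_mul hG _ ha], S.wc_eq hG (mem_cell_of_rep _ (hn w) (hr w)),
      if_neg fun e => h (Subtype.ext e).symm, smul_zero, smul_zero]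
  · rw [map_smul, LinearMap.smul_apply, ev_EE fun a ha c hc => by
      rw [S.wc_mul_B hG _ hc, S.wc_B_mul hG _ ha], S.wc_eq hG (mem_cell_of_rep _ (hn v) (hr v))]
    simp [q0]
  · have := Fintype.ofFinite G
    rw [H19.eq_sum_single y, mul_sum, sum_mul]
    refine sum_mem fun g _ => ?_
    rw [mul_smul_comm, smul_mul_assoc, ← EE, h1 ⟨_, S.wc_W hG g⟩ g (S.wc_mem hG g),
      ← inv_smul_smul₀ (pow_ne_zero (R.N (S.wc hG g)) q0) (EE _ _)]
    exact Submodule.smul_mem _ _ (Submodule.smul_mem _ _ (Submodule.subset_span ⟨⟨_, S.wc_W hG g⟩, rfl⟩))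
  · rw [h2, OneMemClass.coe_one, RS.N_one, pow_zero, one_smul, mul_smul_comm, ee_EE]
  · rw [h3, smul_mul_assoc, mul_smul_comm, smul_smul, ← pow_succ', ← RS.N_s_mul (R.W_le_Aut w.2) hp]
    refine congrArg _ (EE_mul fun d hd => h1 _ _ ?_)
    rw [mul_assoc]
    exact (S.cell_step (Set.mem_univ i) (R.WJ_univ.ge w.2) (Cell.mul_left (mem_cell_of_rep _ (hn w)
      (hr w)) (S.BK_univ ▸ hd)) one_ne_zero).resolve_right fun h => h.1 hp
  · rw [h3, h2, OneMemClass.coe_one, RS.N_one, pow_zero, one_smul, EE_sq S i hq]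

theorem card_constituents {D : Lie.ChevalleyDatum} {T : Tab} (h : T.Chk D) (F : Type*) [Field F]
    [Fintype F] : Nat.card {χ : IrrCharacter (D.group F) // ∃ φ, IsCharacter (D.group F) φ ∧
      fixedPointCharacter ((D.borelSubgroup F).subgroupOf (D.group F)) = (χ : D.group F → ℂ) + φ} =
        Nat.card (ConjClasses h.rsys.W) := by
  obtain ⟨n, hn⟩ := const_of_infinite (cc h.rsys) (Set.infinite_range_of_injective
    (f := fun m : ℕ => ((2 ^ (m + 1) : ℕ) : ℂ)) fun a b e => by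
      simpa using Nat.pow_right_injective le_rfl (Nat.cast_injective e)) (by
    rintro _ ⟨m, rfl⟩
    have := Fintype.ofFinite (GaloisField 2 (m + 1))
    have := h.finite_grp (GaloisField 2 (m + 1))
    obtain ⟨-, h1, h2⟩ := count_G (h.grp (GaloisField 2 (m + 1))) (h.grp_Gr _)
    rw [← Nat.card_eq_fintype_card (α := GaloisField _ _), GaloisField.card 2 _ m.succ_ne_zero] at h2
    exact ⟨_, h1, h2⟩)
  have := h.finite_grp F
  obtain ⟨h1, -, h2⟩ := count_G (h.grp F) (h.grp_Gr _)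
  obtain ⟨h3, h4⟩ := count_W h.rsys
  simp only [h.grp_B, subgroupOf_map_subtype, constituent_iff]
  exact Nat.cast_injective (R := ℂ) ((mul_right_cancel₀ h1 (h2.symm.trans (hn _))).trans
    (mul_right_cancel₀ h3 (h4.symm.trans (hn _))).symm)

theorem card_conj_congr {A B : Type*} [Group A] [Group B] (e : A ≃* B) :
    Nat.card (ConjClasses A) = Nat.card (ConjClasses B) :=
  Nat.card_congr (Quotient.congr e.toEquiv fun _ _ =>
    ⟨e.toMonoidHom.map_isConj, fun h => isConj_iff.2 (by simpa using e.symm.toMonoidHom.map_isConj h)⟩)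

end H20.Hk
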