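import Cfsg.Agent.H19.Loc

/-! Alternating sums over chains of `p`-subgroups. -/

set_option autoImplicit false
set_option linter.unusedSectionVars false

open MonoidAlgebra Subgroup H10 Cfsg H17 Finset
open H19 (kk Blk irr eB fB lam OG red ZZ om ev IsPElt ppart Kr Induces RS)

namespace H20

section Count
variable {O : ValuationSubring ℂ} {G : Type*} [Group G] [Finite G] {p : ℕ} [hp : Fact p.Prime]
  [CharP (kk O) p]

theorem blockRank_finset (S : Finset (Blk O G)) :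
    blockRank p {ψ | lam O ψ ∈ S} = ∑ b ∈ S, blockRank p (irr b) := by
  classical
  induction S using Finset.induction_on with
  | empty => simp [blockRank]
  | insert b S hb ih =>
    have h1 : {ψ | lam O ψ ∈ insert b S} = irr b ∪ {ψ | lam O ψ ∈ S} := by
      ext ψ; simp
    rw [sum_insert hb, ← ih, h1, blockRank, Set.image_union, Submodule.span_union, blockRank,
      blockRank, ← Submodule.finrank_sup_add_finrank_inf_eq, left_eq_add,
      Submodule.finrank_eq_zero, eq_bot_iff]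
    rintro f ⟨h2, h3⟩
    have h4 : f ∈ RS p {ψ | lam O ψ = b} := h2
    have h5 : f ∈ RS p {ψ | lam O ψ ∈ S} := h3
    have h6 : {ψ | lam O ψ ∈ S} ⊆ {ψ | lam O ψ = b}ᶜ := fun ψ h h' =>
      hb (by rwa [← show lam O ψ = b from h'])
    exact H19.RS_disjoint (O := O) (p := p) (H19.closed_lam (· = b)) h4 (H19.RS_mono h6 h5)

omit hp [CharP (kk O) p] in
theorem card_finset (S : Finset (Blk O G)) :
    Nat.card {ψ | lam O ψ ∈ S} = ∑ b ∈ S, Nat.card (irr b) := by
  classical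
  rw [card_eq_filter, card_eq_sum_card_fiberwise (f := lam O) (t := S) (by intro x; simp)]
  refine sum_congr rfl fun b hb => ?_
  rw [card_eq_filter]
  congr 1
  ext ψ
  simp only [mem_filter, mem_univ, true_and, Set.mem_setOf_eq, H19.mem_irr]
  exact ⟨fun h => h.2, fun h => ⟨h ▸ hb, h⟩⟩

open Classical in
/-- the blocks of `H` below `j` -/
noncomputable def BS (H : Subgroup G) (j : (kk O)[G]) : Finset (Blk O H) :=
  {γ | j * eA H γ = eA H γ}

omit hp [CharP (kk O) p] in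
theorem mem_BS {H : Subgroup G} {j : (kk O)[G]} {γ : Blk O H} :
    γ ∈ BS H j ↔ j * eA H γ = eA H γ := by simp [BS]

variable (p) in
/-- sum of the ranks of the blocks of `H` below `j` -/
noncomputable def LL (H : Subgroup G) (j : (kk O)[G]) : ℕ := ∑ γ ∈ BS H j, blockRank p (irr γ)

/-- sum of the numbers of characters of the blocks of `H` below `j` -/
noncomputable def KK (H : Subgroup G) (j : (kk O)[G]) : ℕ := ∑ γ ∈ BS H j, Nat.card (irr γ)

theorem induces_cent_iff {u : G} (hu : IsPElt p u) (b : Blk O (centralizer ({u} : Set G)))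
    (β : Blk O G) : Induces _ b β ↔ br (zpowers u) (eG β) * eA _ b = eA _ b := by
  have h1 : centralizer ({u} : Set G) ≤ nrm (zpowers u) := cent_zpowers u ▸ cent_le_nrm _
  rw [induces_iff_ind, ind_iff_br hu.isPGroup_zpowers le_top
    ((zpowers_le.2 (mem_centralizer_singleton_iff.2 rfl)).trans (le_nrm_self _))
    (inf_le_right.trans (cent_zpowers u).le) le_top h1 (isBlk_eA _ b) (isBlk_eG β)]

omit [CharP (kk O) p] in
theorem ppart_eq_one_iff' {g : G} : ppart p g = 1 ↔ ¬ p ∣ orderOf g := by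
  refine ⟨fun h => ?_, fun h => by simpa using H19.ppart_mul H19.isPElt_one h (Commute.one_left g)⟩
  have := H19.rpart_reg (p := p) g
  rwa [H19.rpart, h, inv_one, one_mul] at this

theorem card_eq_rank_add [Fintype G] [DecidablePred fun u : G => IsPElt p u ∧ u ≠ 1] (β : Blk O G) :
    Nat.card G * Nat.card (irr β) = Nat.card G * blockRank p (irr β) +
      ∑ u with IsPElt p u ∧ u ≠ 1, Nat.card (centralizer ({u} : Set G)) *
        LL p (centralizer ({u} : Set G)) (br (zpowers u) (eG β)) := by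
  classical
  apply Nat.cast_injective (R := ℂ)
  push_cast
  rw [← sum_Kr_self, ← sum_Kr_reg, ← sum_filter_add_sum_filter_not univ fun y => ¬ p ∣ orderOf y,
    add_right_inj, ← sum_fiberwise_of_maps_to (g := ppart p)
      (t := univ.filter fun u => IsPElt p u ∧ u ≠ 1) fun g hg => mem_filter.2 ⟨mem_univ _,
        H19.ppart_isPElt g, fun h => by
          rw [mem_filter] at hg; exact hg.2 (ppart_eq_one_iff'.1 h)⟩]
  refine sum_congr (by congr) fun u hu => ?_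
  obtain ⟨-, hu, hu1⟩ := mem_filter.1 hu
  have h1 : (univ.filter fun y : G => ¬ ¬ p ∣ orderOf y).filter (fun g => ppart p g = u) =
      univ.filter fun g => ppart p g = u := by
    ext g
    simp only [mem_filter, mem_univ, true_and]
    exact ⟨fun h => h.2, fun h => ⟨fun h' => hu1 (h ▸ ppart_eq_one_iff'.2 h'), h⟩⟩
  rw [h1, sum_ppart_eq hu rfl, sum_congr rfl fun y hy => by
    rw [H19.Kr_shift hu β (mem_filter.1 hy).2 (mem_filter.1 hy).2, Kr_lam (fun b => Induces _ b β)],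
    sum_comm, LL, Nat.cast_sum, mul_sum]
  refine sum_congr ?_ fun b _ => sum_Kr_reg b
  ext b
  simp only [mem_filter, mem_univ, true_and, induces_cent_iff hu, mem_BS]

theorem LL_br {u : G} (hu : IsPElt p u) {j : (kk O)[G]}
    (hj : j ∈ fixed (kk O) (⊤ : Subgroup G)) (hi : IsIdempotentElem j)
    [DecidablePred fun β : Blk O G => j * eG β = eG β] :
    LL p (centralizer ({u} : Set G)) (br (zpowers u) j) = ∑ β with j * eG β = eG β,
      LL p (centralizer ({u} : Set G)) (br (zpowers u) (eG β)) := by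
  classical
  simp only [LL, BS]
  simp_rw [sum_filter (s := (univ : Finset (Blk O (centralizer ({u} : Set G)))))]
  rw [sum_comm]
  refine sum_congr rfl fun γ _ => ?_
  obtain ⟨β, hβ⟩ := H19.exists_induces_centralizer hu γ
  have h1 := (induces_cent_iff hu γ β).1 hβ
  have h2 : br (zpowers u) j * eA _ γ = br (zpowers u) (j * eG β) * eA _ γ := by
    rw [br_mul hu.isPGroup_zpowers (fixed_anti le_top hj) (fixed_anti le_top (isBlk_eG β).fixed),
      mul_assoc, h1]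
  simp_rw [← induces_cent_iff hu γ, show ∀ β', Induces _ γ β' ↔ β' = β from
    fun β' => ⟨fun h => h.unique hβ, fun h => h ▸ hβ⟩]
  rw [sum_ite_eq']
  refine if_congr ?_ rfl rfl
  rw [mem_filter, h2]
  rcases (isBlk_eG β).mul_eq_zero_or' (mem_cen_top.2 hj) hi with h | h
  · rw [h, map_zero, zero_mul]
    exact iff_of_false (isBlk_eA _ γ).ne_zero.symm fun h => (isBlk_eG β).ne_zero h.2.symm
  · rw [h]
    exact iff_of_true h1 ⟨mem_univ _, rfl⟩

theorem LL_up {H K : Subgroup G} {K' : Subgroup H} (hK : up K' = K) (j : (kk O)[H]) :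
    LL p K' j = LL p K (emb (kk O) H j) := by
  classical
  subst hK
  have h1 : ∀ γ : Blk O K', ∃ c : Blk O (up K'), eA _ c = emb (kk O) H (eA K' γ) :=
    fun γ => (emb_eA K' γ).exists_eA
  choose c hc using h1
  refine sum_bij (fun γ _ => c γ) (fun γ hγ => ?_) (fun γ _ γ' _ h => ?_) (fun γ hγ => ?_)
    fun γ _ => H19.blockRank_up rfl (hc γ).symm
  · rw [mem_BS] at hγ ⊢
    rw [hc, ← map_mul, hγ]
  · rw [← eA_inj, ← emb_inj, ← hc, ← hc, h]
  · obtain ⟨e, he, he'⟩ := (isBlk_eA _ γ).exists_emb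
    obtain ⟨γ', rfl⟩ := he.exists_eA
    refine ⟨γ', mem_BS.2 ?_, eA_inj.1 ((hc _).trans he')⟩
    rw [← emb_inj, map_mul, he']
    exact mem_BS.1 hγ

theorem KK_eq [Fintype G] {H : Subgroup G} [DecidablePred fun u : G => (IsPElt p u ∧ u ≠ 1) ∧ u ∈ H]
    {j : (kk O)[G]} (hj : j ∈ cen (kk O) H) (hi : IsIdempotentElem j) :
    Nat.card H * KK H j = Nat.card H * LL p H j + ∑ u with (IsPElt p u ∧ u ≠ 1) ∧ u ∈ H,
      Nat.card (H ⊓ centralizer ({u} : Set G) : Subgroup G) *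
        LL p (H ⊓ centralizer ({u} : Set G)) (br (zpowers u) j) := by
  classical
  obtain ⟨j, rfl⟩ := exists_emb_eq (mem_cen.1 hj).1
  have hj' : j ∈ fixed (kk O) (⊤ : Subgroup H) := by
    rw [← emb_mem_fixed_up, up_top]; exact (mem_cen.1 hj).2
  have h1 : BS H (emb (kk O) H j) = univ.filter fun γ => j * eG γ = eG γ := by
    ext γ
    rw [mem_BS, eA, ← map_mul, emb_inj, mem_filter_univ]
  rw [KK, LL, h1, mul_sum, mul_sum, sum_congr rfl fun β _ => card_eq_rank_add (p := p) β, sum_add_distrib,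
    add_right_inj, sum_comm]
  symm
  refine sum_bij' (fun u hu => ⟨u, (mem_filter.1 hu).2.2⟩) (fun u _ => u) (fun u hu => ?_)
    (fun u hu => ?_) (fun _ _ => rfl) (fun _ _ => rfl) fun u hu => ?_
  · obtain ⟨-, ⟨h2, h3⟩, -⟩ := mem_filter.1 hu
    exact mem_filter.2 ⟨mem_univ _, H19.isPElt_coe_iff.1 h2, fun h => h3 (congrArg Subtype.val h)⟩
  · obtain ⟨-, h2, h3⟩ := mem_filter.1 hu
    exact mem_filter.2 ⟨mem_univ _, ⟨H19.isPElt_coe_iff.2 h2, fun h => h3 (Subtype.ext h)⟩, u.2⟩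
  · obtain ⟨-, ⟨h2, h3⟩, h4⟩ := mem_filter.1 hu
    rw [← mul_sum, ← LL_br (H19.isPElt_coe_iff.1 h2) hj' (emb_idem_iff.1 hi),
      LL_up (H19.up_centralizer _), ← card_up, H19.up_centralizer, emb_br, up, MonoidHom.map_zpowers]
    rfl

end Count

section Chain
variable {G : Type*} [Group G] [Finite G] {p : ℕ} [hp : Fact p.Prime] {u : G}
  {s : Finset (Subgroup G)}

variable (p) in
/-- normal chains of nontrivial `p`-subgroups -/
structure NCh (s : Finset (Subgroup G)) : Prop where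
  chain : ∀ Q ∈ s, ∀ R ∈ s, Q ≤ R ∨ R ≤ Q
  pgrp : ∀ Q ∈ s, Q ≠ ⊥ ∧ IsPGroup p Q
  nrm : ∀ Q ∈ s, ∀ R ∈ s, R ≤ nrm Q

/-- stabiliser of a chain -/
abbrev NS (s : Finset (Subgroup G)) : Subgroup G := ⨅ Q ∈ s, normalizer (Q : Set G)

theorem mem_NS {g : G} : g ∈ NS s ↔ ∀ Q ∈ s, g ∈ nrm Q := by simp [NS, mem_iInf]

theorem le_NS {K : Subgroup G} : K ≤ NS s ↔ ∀ Q ∈ s, K ≤ nrm Q := by simp [NS]

theorem mem_nrm_sup {g : G} (h : ∀ Q ∈ s, g ∈ nrm Q) : g ∈ nrm (s.sup id) :=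
  sup_induction (p := fun Q => g ∈ nrm Q) (by rw [nrm_bot]; trivial)
    (fun a ha b hb => by rw [mem_nrm] at *; rw [sc_sup, ha, hb]) h

theorem sup_mem_chain (h : ∀ Q ∈ s, ∀ R ∈ s, Q ≤ R ∨ R ≤ Q) : s.sup id = ⊥ ∨ s.sup id ∈ s := by
  refine sup_induction (p := fun Q => Q = ⊥ ∨ Q ∈ s) (.inl rfl) ?_ fun Q hQ => .inr hQ
  rintro a (rfl | ha) b hb
  · rwa [bot_sup_eq]
  rcases hb with rfl | hb
  · rw [sup_bot_eq]; exact .inr ha
  rcases h a ha b hb with h | h
  · rw [sup_eq_right.2 h]; exact .inr hb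
  · rw [sup_eq_left.2 h]; exact .inr ha

theorem NCh.isPGroup (h : NCh p s) : IsPGroup p (s.sup id : Subgroup G) := by
  rcases sup_mem_chain h.chain with h1 | h1
  · rw [h1]; exact IsPGroup.of_bot
  · exact (h.pgrp _ h1).2

theorem NCh.sup_le (h : NCh p s) : s.sup id ≤ NS s :=
  le_NS.2 fun Q hQ => Finset.sup_le fun R hR => h.nrm Q hQ R hR

/-- the join of the chain and `u` -/
noncomputable def TU (u : G) (s : Finset (Subgroup G)) : Subgroup G := zpowers u ⊔ s.sup id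

open Classical in
/-- the largest member not containing `u` -/
noncomputable def QU (u : G) (s : Finset (Subgroup G)) : Subgroup G := (s.filter (u ∉ ·)).sup id

/-- the subgroup which is toggled -/
noncomputable def RU (u : G) (s : Finset (Subgroup G)) : Subgroup G :=
  sInf {X | u ∈ X ∧ QU u s ≤ X ∧ TU u s ≤ nrm X}

theorem mem_TU : u ∈ TU u s := mem_sup_left (mem_zpowers u)

theorem le_TU {Q : Subgroup G} (h : Q ∈ s) : Q ≤ TU u s := le_sup_of_le_right (le_sup (f := id) h)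

theorem QU_le_TU : QU u s ≤ TU u s := by
  classical exact Finset.sup_le fun Q hQ => le_TU (mem_filter.1 hQ).1

theorem le_QU {Q : Subgroup G} (h : Q ∈ s) (hu : u ∉ Q) : Q ≤ QU u s := by
  classical exact le_sup (f := id) (mem_filter.2 ⟨h, hu⟩)

theorem mem_RU : u ∈ RU u s := mem_sInf.2 fun _ h => h.1

theorem QU_le_RU : QU u s ≤ RU u s := le_sInf fun _ h => h.2.1

theorem RU_le {X : Subgroup G} (h1 : u ∈ X) (h2 : QU u s ≤ X) (h3 : TU u s ≤ nrm X) :
    RU u s ≤ X := sInf_le ⟨h1, h2, h3⟩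

theorem RU_le_TU : RU u s ≤ TU u s := RU_le mem_TU QU_le_TU (le_nrm_self _)

theorem mem_nrm_of_le {K X : Subgroup G} (h : ∀ g ∈ K, X ≤ sc g X) : K ≤ nrm X := fun g hg =>
  mem_nrm.2 (le_antisymm (sc_le_iff.2 (h _ (K.inv_mem hg))) (h g hg))

theorem TU_le_nrm_RU : TU u s ≤ nrm (RU u s) :=
  mem_nrm_of_le fun g hg => le_sc_iff.2 <| le_sInf fun X hX =>
    sc_le_of_nrm (hX.2.2 (inv_mem hg)) (sInf_le hX)

theorem inf_le_nrm_RU : NS s ⊓ centralizer {u} ≤ nrm (RU u s) := by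
  classical
  refine mem_nrm_of_le fun g ⟨hg, hc⟩ => ?_
  have h1 : g * u * g⁻¹ = u := by
    rw [mem_centralizer_singleton_iff.1 hc, mul_inv_cancel_right]
  have h2 : sc g (QU u s) = QU u s :=
    mem_nrm.1 (mem_nrm_sup fun Q hQ => mem_NS.1 hg Q (mem_filter.1 hQ).1)
  have h3 : sc g (TU u s) = TU u s := by
    rw [TU, sc_sup, sc_zpowers, h1, mem_nrm.1 (mem_nrm_sup (mem_NS.1 hg))]
  refine RU_le (h1.subst (motive := (· ∈ sc g (RU u s))) (conj_mem_sc mem_RU)) (h2 ▸ sc_mono g QU_le_RU) ?_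
  rw [nrm_sc, ← h3]
  exact sc_mono g TU_le_nrm_RU

theorem NCh.TU_le (h : NCh p s) (hu : u ∈ NS s) : TU u s ≤ NS s :=
  _root_.sup_le (zpowers_le.2 hu) h.sup_le

theorem NCh.isPGroup_TU (h : NCh p s) (hp : IsPElt p u) (hu : u ∈ NS s) : IsPGroup p (TU u s) :=
  isPGroup_sup_of_NN hp.isPGroup_zpowers h.isPGroup (zpowers_le.2 (mem_nrm_sup (mem_NS.1 hu)))

theorem NCh.comp (h : NCh p s) (hu : u ∈ NS s) {Q : Subgroup G} (hQ : Q ∈ s) :
    RU u s ≤ Q ∨ Q ≤ RU u s := by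
  classical
  by_cases h1 : u ∈ Q
  · refine .inl (RU_le h1 (Finset.sup_le fun R hR => ?_) (le_NS.1 (h.TU_le hu) Q hQ))
    obtain ⟨h2, h3⟩ := mem_filter.1 hR
    exact (h.chain R h2 Q hQ).resolve_right fun h4 => h3 (h4 h1)
  · exact .inr ((le_QU hQ h1).trans QU_le_RU)

theorem QU_congr {t : Finset (Subgroup G)} (h : ∀ Q, u ∉ Q → (Q ∈ s ↔ Q ∈ t)) :
    QU u s = QU u t := by
  classical
  rw [QU, QU, filter_congr_decidable, filter_congr_decidable]
  congr 1
  ext Q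
  simp only [mem_filter]
  exact and_congr_left (h Q)

open Classical in
/-- the toggling involution -/
noncomputable def tog (u : G) (s : Finset (Subgroup G)) : Finset (Subgroup G) :=
  if RU u s ∈ s then s.erase (RU u s) else insert (RU u s) s

theorem mem_tog {Q : Subgroup G} (h : Q ≠ RU u s) : Q ∈ tog u s ↔ Q ∈ s := by
  unfold tog; split_ifs <;> simp [h]

theorem mem_tog_self : RU u s ∈ tog u s ↔ RU u s ∉ s := by
  unfold tog; split_ifs with h <;> simp [h]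

theorem mem_tog_or {Q : Subgroup G} (h : Q ∈ tog u s) : Q = RU u s ∨ Q ∈ s := by
  by_cases h1 : Q = RU u s
  · exact .inl h1
  · exact .inr ((mem_tog h1).1 h)

theorem neg_one_pow_tog : (-1 : ℤ) ^ (tog u s).card = -(-1) ^ s.card := by
  classical
  unfold tog
  split_ifs with h
  · rw [← card_erase_add_one h, pow_succ]; simp
  · rw [card_insert_of_notMem h, pow_succ]; simp

theorem QU_tog : QU u (tog u s) = QU u s :=
  QU_congr fun _ h => mem_tog fun h' => h (h' ▸ mem_RU)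

theorem NCh.TU_tog (h : NCh p s) (hp : IsPElt p u) (hu : u ∈ NS s) : TU u (tog u s) = TU u s := by
  have h1 : TU u (tog u s) ≤ TU u s := _root_.sup_le (zpowers_le.2 mem_TU) <|
    Finset.sup_le fun Q hQ => (mem_tog_or hQ).elim (fun h => h ▸ RU_le_TU) le_TU
  by_contra h2
  obtain ⟨X, ⟨h3, h4⟩, h5⟩ := (Set.toFinite {X | TU u (tog u s) ≤ X ∧ X < TU u s}).exists_maximal
    ⟨_, le_rfl, h1.lt_of_ne h2⟩
  have h6 := lt_inf_nrm (h.isPGroup_TU hp hu) h4
  have h7 : TU u s ≤ H20.nrm X := by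
    by_contra h7
    exact h6.not_ge (h5 ⟨h3.trans h6.le, inf_le_left.lt_of_ne fun h8 => h7 (h8 ▸ inf_le_right)⟩
      h6.le)
  have h8 := RU_le (h3 mem_TU) (QU_tog (u := u) (s := s) ▸ QU_le_TU.trans h3) h7
  refine h4.not_ge (_root_.sup_le (zpowers_le.2 (h3 mem_TU)) (Finset.sup_le fun Q hQ => ?_))
  by_cases h9 : Q = RU u s
  · exact h9 ▸ h8
  · exact (le_TU ((mem_tog h9).2 hQ)).trans h3

theorem NCh.RU_tog (h : NCh p s) (hp : IsPElt p u) (hu : u ∈ NS s) : RU u (tog u s) = RU u s := by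
  rw [RU, h.TU_tog hp hu, QU_tog, RU]

theorem NCh.tog_tog (h : NCh p s) (hp : IsPElt p u) (hu : u ∈ NS s) : tog u (tog u s) = s := by
  ext Q
  by_cases h1 : Q = RU u s
  · rw [h1, ← h.RU_tog hp hu, mem_tog_self, h.RU_tog hp hu, mem_tog_self, not_not]
  · rw [mem_tog (h.RU_tog hp hu ▸ h1), mem_tog h1]

theorem NCh.TU_le_tog (h : NCh p s) (hu : u ∈ NS s) : TU u s ≤ NS (tog u s) :=
  le_NS.2 fun Q hQ => (mem_tog_or hQ).elim (fun h => h ▸ TU_le_nrm_RU) (le_NS.1 (h.TU_le hu) Q)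

theorem NCh.tog (h : NCh p s) (hp : IsPElt p u) (h1 : u ≠ 1) (hu : u ∈ NS s) :
    NCh p (tog u s) := by
  refine ⟨fun Q hQ R hR => ?_, fun Q hQ => ?_, fun Q hQ R hR => ?_⟩
  · rcases mem_tog_or hQ with rfl | hQ <;> rcases mem_tog_or hR with rfl | hR
    · exact .inl le_rfl
    · exact h.comp hu hR
    · exact (h.comp hu hQ).symm
    · exact h.chain Q hQ R hR
  · rcases mem_tog_or hQ with rfl | hQ
    · exact ⟨fun h => h1 (mem_bot.1 (h ▸ mem_RU)), (h.isPGroup_TU hp hu).to_le RU_le_TU⟩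
    · exact h.pgrp Q hQ
  · exact ((le_TU hR).trans (h.TU_tog hp hu).le).trans (le_NS.1 (h.TU_le_tog hu) Q hQ)

theorem inf_le_NS_tog : NS s ⊓ centralizer {u} ≤ NS (tog u s) ⊓ centralizer {u} :=
  le_inf (le_NS.2 fun Q hQ => (mem_tog_or hQ).elim (fun h => h ▸ inf_le_nrm_RU)
    fun hQ => le_NS.1 inf_le_left Q hQ) inf_le_right

theorem NCh.NS_tog (h : NCh p s) (hp : IsPElt p u) (hu : u ∈ NS s) :
    NS (H20.tog u s) ⊓ centralizer {u} = NS s ⊓ centralizer {u} := by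
  refine le_antisymm ?_ inf_le_NS_tog
  conv_rhs => rw [← h.tog_tog hp hu]
  exact inf_le_NS_tog

theorem sum_chain_zero (hp : IsPElt p u) (h1 : u ≠ 1) (F : Subgroup G → Subgroup G → ℤ)
    [Fintype (Subgroup G)] [DecidablePred fun s : Finset (Subgroup G) => NCh p s ∧ u ∈ NS s] :
    ∑ s with NCh p s ∧ u ∈ NS s, (-1) ^ s.card * F (NS s ⊓ centralizer {u}) (TU u s) = 0 := by
  refine sum_involution (fun s _ => tog u s) (fun s hs => ?_) (fun s _ _ h => ?_) (fun s hs => ?_)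
    fun s hs => ?_
  · obtain ⟨-, h, hu⟩ := mem_filter.1 hs
    rw [h.NS_tog hp hu, h.TU_tog hp hu, neg_one_pow_tog, neg_mul, add_neg_cancel]
  · exact iff_not_self (h ▸ (mem_tog_self (u := u) (s := s)))
  · obtain ⟨-, h, hu⟩ := mem_filter.1 hs
    exact mem_filter.2 ⟨mem_univ _, h.tog hp h1 hu, h.TU_le_tog hu mem_TU⟩
  · obtain ⟨-, h, hu⟩ := mem_filter.1 hs
    exact h.tog_tog hp hu

end Chain

section Main
variable {O : ValuationSubring ℂ} {G : Type*} [Group G] [Finite G] {p : ℕ} [hp : Fact p.Prime]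
  [CharP (kk O) p] {s : Finset (Subgroup G)}

theorem nch_iff : (s.Nonempty ∧ (∀ Q ∈ s, ∀ R ∈ s, Q ≤ R ∨ R ≤ Q) ∧
    (∀ Q ∈ s, Q ≠ ⊥ ∧ IsPGroup p Q) ∧ ∃ T ∈ s, ∀ Q ∈ s, Q ≤ T ∧ T ≤ normalizer (Q : Set G)) ↔
    NCh p s ∧ s ≠ ∅ := by
  refine ⟨fun ⟨h1, h2, h3, T, _, h4⟩ => ⟨⟨h2, h3, fun Q hQ R hR => (h4 R hR).1.trans (h4 Q hQ).2⟩,
    h1.ne_empty⟩, fun ⟨h, h1⟩ => ⟨nonempty_iff_ne_empty.2 h1, h.chain, h.pgrp, s.sup id, ?_,
      fun Q hQ => ⟨le_sup (f := id) hQ, Finset.sup_le (h.nrm Q hQ)⟩⟩⟩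
  obtain ⟨Q, hQ⟩ := nonempty_iff_ne_empty.2 h1
  exact (sup_mem_chain h.chain).resolve_left fun h2 =>
    (h.pgrp Q hQ).1 (eq_bot_iff.2 (h2 ▸ le_sup (f := id) hQ))

theorem cent_le_NS : cent (s.sup id) ≤ NS s :=
  le_NS.2 fun _ hQ => (cent_anti (le_sup (f := id) hQ)).trans (cent_le_nrm _)

theorem NS_le_nrm : NS s ≤ nrm (s.sup id) := fun _ hg => mem_nrm_sup (mem_NS.1 hg)

theorem NCh.set_eq {M : Ideal AlgInt} (hO : H19.Over O M) (h : NCh p s) (β : Blk O G) :
    {ψ : IrrCharacter (NS s) | ∃ b, ψ ∈ b ∧ IsInducedBlock M (NS s) b (irr β)} =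
      {ψ | lam O ψ ∈ BS (NS s) (br (s.sup id) (eG β))} := by
  ext ψ
  rw [Set.mem_setOf_eq, Set.mem_setOf_eq, mem_BS, ← ind_iff_br h.isPGroup le_top
    (h.sup_le.trans (le_nrm_self _)) (inf_le_right.trans cent_le_NS) le_top NS_le_nrm
    (isBlk_eA _ _) (isBlk_eG β), ← isInducedBlock_iff hO]
  refine ⟨fun ⟨b, h1, h2⟩ => ?_, fun h => ⟨irr (lam O ψ), rfl, h⟩⟩
  obtain ⟨b, -, rfl, -⟩ := hO.exists_of_isInducedBlock h2
  rwa [show lam O ψ = b from h1]

theorem NCh.term [Fintype G] [DecidablePred fun u : G => (IsPElt p u ∧ u ≠ 1)]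
    [DecidablePred (· ∈ NS s)] (h : NCh p s) (β : Blk O G) :
    (Nat.card (NS s) : ℤ) * (KK (NS s) (br (s.sup id) (eG β)) - LL p (NS s) (br (s.sup id) (eG β))) =
      ∑ u with IsPElt p u ∧ u ≠ 1, if u ∈ NS s then
        (Nat.card (NS s ⊓ centralizer {u} : Subgroup G) : ℤ) *
          LL p (NS s ⊓ centralizer {u}) (br (TU u s) (eG β)) else 0 := by
  have h1 := KK_eq (p := p) (H := NS s) (j := br (s.sup id) (eG β))
    (mem_cen.2 ⟨supp_mono cent_le_NS (br_mem_supp _ _),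
      br_mem_fixed NS_le_nrm (fixed_anti le_top (isBlk_eG β).fixed)⟩)
    (br_idem h.isPGroup (fixed_anti le_top (isBlk_eG β).fixed) (eG_idem β))
  rw [← sum_filter, filter_filter, mul_sub, sub_eq_iff_eq_add']
  simp_rw [br_br] at h1
  exact_mod_cast h1

theorem kr_sum [Fintype (Subgroup G)] [DecidablePred fun s : Finset (Subgroup G) => NCh p s ∧ s ≠ ∅]
    (β : Blk O G) : (Nat.card G : ℤ) * (Nat.card (irr β) - blockRank p (irr β)) =
      ∑ s with NCh p s ∧ s ≠ ∅, (-1) ^ (s.card - 1) * (Nat.card (NS s) : ℤ) *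
        (KK (NS s) (br (s.sup id) (eG β)) - LL p (NS s) (br (s.sup id) (eG β))) := by
  classical
  have := Fintype.ofFinite G
  rw [sum_congr rfl fun s hs => by rw [mul_assoc, (mem_filter.1 hs).2.1.term β, mul_sum], sum_comm,
    mul_sub, sub_eq_iff_eq_add', ← Nat.cast_mul, card_eq_rank_add (p := p) β]
  push_cast
  rw [add_right_inj]
  refine sum_congr rfl fun u hu => ?_
  obtain ⟨-, hu, h1⟩ := mem_filter.1 hu
  have h2 := sum_chain_zero hu h1 fun K T => (Nat.card K : ℤ) * LL p K (br T (eG β))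
  have h3 : (∅ : Finset (Subgroup G)) ∈ univ.filter fun s => NCh p s ∧ u ∈ NS s :=
    mem_filter.2 ⟨mem_univ _, ⟨by simp, by simp, by simp⟩, mem_NS.2 (by simp)⟩
  rw [← add_sum_erase _ _ h3, show NS (∅ : Finset (Subgroup G)) = ⊤ by simp [NS], top_inf_eq, TU,
    sup_empty, sup_bot_eq, card_empty, pow_zero, one_mul, add_eq_zero_iff_eq_neg] at h2
  rw [h2, ← sum_neg_distrib]
  simp_rw [mul_ite, mul_zero]
  rw [← sum_filter, filter_filter]
  refine sum_congr (by ext s; simp only [mem_erase, mem_filter, mem_univ]; tauto) fun s hs => ?_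
  obtain ⟨n, hn⟩ := Nat.exists_eq_succ_of_ne_zero (card_ne_zero.2
    (nonempty_iff_ne_empty.2 (mem_filter.1 hs).2.1.2))
  rw [hn, pow_succ]
  simp

end Main

end H20
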