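import Mathlib

/-! Finite projective planes with a group of collineations: axes, centres, elations. -/

set_option autoImplicit false

namespace H20.OW

open MulAction Subgroup

variable {G P L : Type*}

/-- The configuration that makes an incidence structure a projective plane. -/
def Cf (I : P → L → Prop) (p₁ p₂ p₃ : P) (l₁ l₂ l₃ : L) : Prop :=
  ¬I p₁ l₂ ∧ ¬I p₁ l₃ ∧ ¬I p₂ l₁ ∧ I p₂ l₂ ∧ I p₂ l₃ ∧ ¬I p₃ l₁ ∧ I p₃ l₂ ∧ ¬I p₃ l₃

theorem Cf.flip {I : P → L → Prop} {p₁ p₂ p₃ : P} {l₁ l₂ l₃ : L} (h : Cf I p₁ p₂ p₃ l₁ l₂ l₃) :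
    Cf (flip I) l₁ l₂ l₃ p₁ p₂ p₃ :=
  let ⟨a, b, c, d, e, f, g, k⟩ := h; ⟨c, f, a, d, g, b, e, k⟩

structure PP (I : P → L → Prop) (n : ℕ) : Prop where
  jn : ∀ {p q}, p ≠ q → ∃ l, I p l ∧ I q l
  mt : ∀ {l m}, l ≠ m → ∃ p, I p l ∧ I p m
  un : ∀ {p q l m}, I p l → I q l → I p m → I q m → p = q ∨ l = m
  cl : ∀ l, {p | I p l}.ncard = n + 1
  cp : ∀ p, {l | I p l}.ncard = n + 1
  cP : Nat.card P = n ^ 2 + n + 1
  cL : Nat.card L = n ^ 2 + n + 1
  two : 2 ≤ n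
  cfg : ∃ p₁ p₂ p₃ l₁ l₂ l₃, Cf I p₁ p₂ p₃ l₁ l₂ l₃

theorem exists_PP [Finite P] [Finite L] {I : P → L → Prop}
    (jn : ∀ {p q}, p ≠ q → ∃ l, I p l ∧ I q l) (mt : ∀ {l m}, l ≠ m → ∃ p, I p l ∧ I p m)
    (un : ∀ {p q l m}, I p l → I q l → I p m → I q m → p = q ∨ l = m)
    (cfg : ∃ p₁ p₂ p₃ l₁ l₂ l₃, Cf I p₁ p₂ p₃ l₁ l₂ l₃) : ∃ n, PP I n := by
  letI : Membership P L := ⟨fun l p => I p l⟩
  obtain ⟨p₁, p₂, p₃, l₁, l₂, l₃, a, b, c, d, e, f, g, k⟩ := id cfg
  letI : Configuration.ProjectivePlane P L :=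
    { exists_point := fun l => by
        by_contra! H
        rcases un d g (H p₂) (H p₃) with rfl | rfl
        · exact k e
        · exact a (H p₁)
      exists_line := fun p => by
        by_contra! H
        rcases un (H l₂) d (H l₃) e with rfl | rfl
        · exact c (H l₁)
        · exact k g
      eq_or_eq := un
      mkPoint := fun h => (mt h).choose
      mkPoint_ax := fun h => (mt h).choose_spec
      mkLine := fun h => (jn h).choose
      mkLine_ax := fun h => (jn h).choose_spec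
      exists_config := cfg }
  cases nonempty_fintype P
  cases nonempty_fintype L
  exact ⟨Configuration.ProjectivePlane.order P L, jn, mt, un,
    fun l => Configuration.ProjectivePlane.pointCount_eq P l,
    fun p => Configuration.ProjectivePlane.lineCount_eq L p,
    by rw [Nat.card_eq_fintype_card, Configuration.ProjectivePlane.card_points P L],
    by rw [Nat.card_eq_fintype_card, Configuration.ProjectivePlane.card_lines P L],
    Configuration.ProjectivePlane.one_lt_order P L, cfg⟩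

namespace PP

variable {I : P → L → Prop} {n : ℕ} (h : PP I n)
include h

theorem flip : PP (flip I) n :=
  ⟨h.mt, h.jn, fun a b c d => (h.un a c b d).symm, h.cp, h.cl, h.cL, h.cP, h.two,
    let ⟨_, _, _, _, _, _, c⟩ := h.cfg; ⟨_, _, _, _, _, _, c.flip⟩⟩

theorem eqL {p q : P} {l m : L} (e : p ≠ q) (a : I p l) (b : I q l) (c : I p m) (d : I q m) :
    l = m := (h.un a b c d).resolve_left e

theorem eqP {p q : P} {l m : L} (e : l ≠ m) (a : I p l) (b : I q l) (c : I p m) (d : I q m) :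
    p = q := (h.un a b c d).resolve_right e

/-- A third point on a line. -/
theorem third (l : L) (a b : P) : ∃ p, I p l ∧ p ≠ a ∧ p ≠ b := by
  by_contra! H
  have h1 : {p | I p l} ⊆ {a, b} := fun p hp => by
    by_cases e : p = a
    · exact .inl e
    · exact .inr (H p hp e)
  have h2 := (Set.ncard_le_ncard h1).trans (Set.ncard_insert_le a {b})
  rw [h.cl, Set.ncard_singleton] at h2
  have := h.two
  omega

theorem thirdL (p : P) (a b : L) : ∃ l, I p l ∧ l ≠ a ∧ l ≠ b := h.flip.third p a b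

theorem off (l : L) : ∃ p, ¬I p l := by
  obtain ⟨p₁, p₂, p₃, l₁, l₂, l₃, a, b, c, d, e, f, g, k⟩ := h.cfg
  by_contra! H
  rcases h.un d g (H p₂) (H p₃) with rfl | rfl
  · exact k e
  · exact a (H p₁)

theorem offL (p : P) : ∃ l, ¬I p l := h.flip.off p

theorem cl' {l : L} {c : P} (hc : I c l) : {p | I p l ∧ p ≠ c}.ncard = n := by
  have : {p | I p l ∧ p ≠ c} = {p | I p l} \ {c} := rfl
  rw [this, Set.ncard_diff_singleton_of_mem (s := {p | I p l}) hc, h.cl]; rfl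

theorem cp' {l : L} {c : P} (hc : I c l) : {j | I c j ∧ j ≠ l}.ncard = n := h.flip.cl' hc

theorem caff [Finite P] (l : L) : {p | ¬I p l}.ncard = n ^ 2 := by
  have := Set.ncard_add_ncard_compl {p | I p l}
  rw [h.cl, h.cP] at this
  have e : {p | ¬I p l} = {p | I p l}ᶜ := rfl
  rw [e]; omega

end PP

variable [Group G]

section
variable [MulAction G P] [MulAction G L]

structure CG (G : Type*) [Group G] [MulAction G P] [MulAction G L] (I : P → L → Prop) (n : ℕ) :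
    Prop extends PP I n where
  inc : ∀ (g : G) {p l}, I p l → I (g • p) (g • l)
  faith : ∀ g : G, (∀ p : P, g • p = p) → (∀ l : L, g • l = l) → g = 1

/-- `l` is an axis of `g`. -/
def Ax (I : P → L → Prop) (g : G) (l : L) : Prop := ∀ p, I p l → g • p = p

/-- `c` is a centre of `g`. -/
def Ce (I : P → L → Prop) (g : G) (c : P) : Prop := ∀ l, I c l → g • l = l

theorem finv {X : Type*} [MulAction G X] {g : G} {x : X} (h : g • x = x) : g⁻¹ • x = x :=
  inv_smul_eq_iff.2 h.symm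

theorem fmul {X : Type*} [MulAction G X] {a b : G} {x : X} (ha : a • x = x) (hb : b • x = x) :
    (a * b) • x = x := by rw [mul_smul, hb, ha]

variable {I : P → L → Prop} {n : ℕ}

theorem Ax.mul {a b : G} {l : L} (ha : Ax I a l) (hb : Ax I b l) : Ax I (a * b) l :=
  fun p hp => fmul (ha p hp) (hb p hp)

theorem Ax.inv {a : G} {l : L} (ha : Ax I a l) : Ax I a⁻¹ l := fun p hp => finv (ha p hp)

theorem Ce.mul {a b : G} {c : P} (ha : Ce I a c) (hb : Ce I b c) : Ce I (a * b) c :=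
  fun p hp => fmul (ha p hp) (hb p hp)

theorem Ce.inv {a : G} {c : P} (ha : Ce I a c) : Ce I a⁻¹ c := fun p hp => finv (ha p hp)

/-- Perspectivities with a given centre and axis. -/
def TC (G : Type*) [Group G] [MulAction G P] [MulAction G L] (I : P → L → Prop) (c : P) (l : L) :
    Subgroup G where
  carrier := {g | Ce I g c ∧ Ax I g l}
  one_mem' := ⟨fun _ _ => one_smul _ _, fun _ _ => one_smul _ _⟩
  mul_mem' := fun a b => ⟨a.1.mul b.1, a.2.mul b.2⟩
  inv_mem' := fun a => ⟨a.1.inv, a.2.inv⟩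

namespace CG

variable (h : CG G I n)
include h

theorem flip : CG G (flip I) n := ⟨h.toPP.flip, fun g _ _ e => h.inc g e, fun g a b => h.faith g b a⟩

theorem inc' (g : G) {p : P} {l : L} : I (g • p) (g • l) ↔ I p l :=
  ⟨fun e => by simpa using h.inc g⁻¹ e, h.inc g⟩

theorem incl {g : G} {p : P} {l : L} (hl : g • l = l) : I (g • p) l ↔ I p l := by
  rw [← h.inc' g (p := p), hl]

theorem incp {g : G} {p : P} {l : L} (hp : g • p = p) : I p (g • l) ↔ I p l := by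
  rw [← h.inc' g (l := l), hp]

theorem fixl {g : G} {p q : P} {l : L} (e : p ≠ q) (a : I p l) (b : I q l) (gp : g • p = p)
    (gq : g • q = q) : g • l = l := h.eqL e ((h.incp gp).2 a) ((h.incp gq).2 b) a b

theorem fixp {g : G} {p : P} {l m : L} (e : l ≠ m) (a : I p l) (b : I p m) (gl : g • l = l)
    (gm : g • m = m) : g • p = p := h.flip.fixl e a b gl gm

theorem ax_fix {g : G} {l : L} (a : Ax I g l) : g • l = l := by
  obtain ⟨p₁, -⟩ := h.cfg
  obtain ⟨p, hp, -⟩ := h.third l p₁ p₁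
  obtain ⟨q, hq, e, -⟩ := h.third l p p
  exact h.fixl e hq hp (a q hq) (a p hp)

theorem ce_fix {g : G} {c : P} (a : Ce I g c) : g • c = c := h.flip.ax_fix a

theorem triv {g : G} (a : ∀ p : P, g • p = p) : g = 1 :=
  h.faith g a fun _ => h.ax_fix fun p _ => a p

theorem ax_conj {g : G} {l : L} (a : Ax I g l) (x : G) : Ax I (x * g * x⁻¹) (x • l) := fun p hp => by
  rw [mul_smul, mul_smul, a _ (by simpa using h.inc x⁻¹ hp), smul_inv_smul]

theorem ce_conj {g : G} {c : P} (a : Ce I g c) (x : G) : Ce I (x * g * x⁻¹) (x • c) :=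
  h.flip.ax_conj a x

theorem ax_ce {g : G} {l : L} {A : P} (a : Ax I g l) (hA : ¬I A l) (gA : g • A = A) : Ce I g A :=
  fun j hj => by
    obtain ⟨D, h1, h2⟩ := h.mt (show j ≠ l from fun e => hA (e ▸ hj))
    exact h.fixl (show A ≠ D from fun e => hA (e ▸ h2)) hj h1 gA (a D h2)

theorem two_ce {g : G} {A B : P} (a : Ce I g A) (b : Ce I g B) (e : A ≠ B) : g = 1 := by
  obtain ⟨k, hA, hB⟩ := h.jn e
  have key : ∀ X, ¬I X k → g • X = X := fun X hX => by
    obtain ⟨i, i1, i2⟩ := h.jn (show X ≠ A from fun e => hX (e ▸ hA))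
    obtain ⟨j, j1, j2⟩ := h.jn (show X ≠ B from fun e => hX (e ▸ hB))
    exact h.fixp (fun e' : i = j => hX (h.eqL e i2 (e' ▸ j2) hA hB ▸ i1)) i1 j1 (a i i2) (b j j2)
  refine h.triv fun X => ?_
  by_cases hX : I X k
  swap; · exact key X hX
  obtain ⟨j, j1, jk, -⟩ := h.thirdL X k k
  obtain ⟨p, hp, pX, -⟩ := h.third j X X
  obtain ⟨q, hq, qX, qp⟩ := h.third j X p
  exact h.fixp jk j1 hX (h.fixl qp hq hp (key q fun e => qX (h.eqP jk hq j1 e hX))
    (key p fun e => pX (h.eqP jk hp j1 e hX))) (a k hA)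

theorem two_ax {g : G} {l m : L} (a : Ax I g l) (b : Ax I g m) (e : l ≠ m) : g = 1 :=
  h.flip.two_ce a b e

theorem ax_two {g : G} {l : L} {A B : P} (a : Ax I g l) (hA : ¬I A l) (hB : ¬I B l) (e : A ≠ B)
    (gA : g • A = A) (gB : g • B = B) : g = 1 :=
  h.two_ce (h.ax_ce a hA gA) (h.ax_ce a hB gB) e

theorem fix_pt {g : G} {l : L} {C A : P} (c : Ce I g C) (a : Ax I g l) (g1 : g ≠ 1)
    (gA : g • A = A) : A = C ∨ I A l := by
  by_contra! H
  exact g1 (h.two_ce (h.ax_ce a H.2 gA) c H.1)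

theorem fix_ln {g : G} {l j : L} {C : P} (c : Ce I g C) (a : Ax I g l) (g1 : g ≠ 1)
    (gj : g • j = j) : j = l ∨ I C j := h.flip.fix_pt a c g1 gj

theorem exists_ce {g : G} {l : L} (a : Ax I g l) : ∃ C, Ce I g C := by
  by_cases H : ∃ A, ¬I A l ∧ g • A = A
  · obtain ⟨A, h1, h2⟩ := H
    exact ⟨A, h.ax_ce a h1 h2⟩
  push Not at H
  have k1 : ∀ B, ¬I B l → ∃ j, I B j ∧ g • j = j := fun B hB => by
    obtain ⟨j, j1, j2⟩ := h.jn (H B hB)
    obtain ⟨D, d1, d2⟩ := h.mt (show j ≠ l from fun e => hB (e ▸ j2))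
    refine ⟨j, j2, h.eqL (show g • B ≠ D from fun e => ?_) (h.inc g j2) ((h.incp (a D d2)).2 d1)
      j1 d1⟩
    exact hB ((h.incl (h.ax_fix a)).1 (e ▸ d2))
  obtain ⟨B, hB⟩ := h.off l
  obtain ⟨j, j1, j2⟩ := k1 B hB
  have jl : j ≠ l := fun e => hB (e ▸ j1)
  obtain ⟨C, c1, c2⟩ := h.mt jl
  refine ⟨C, fun i hi => ?_⟩
  obtain rfl | il := eq_or_ne i l
  · exact h.ax_fix a
  obtain ⟨D, d1, dC, -⟩ := h.third i C C
  have hD : ¬I D l := fun e => dC (h.eqP il d1 hi e c2)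
  obtain ⟨k, k1, k2⟩ := k1 D hD
  obtain rfl | kj := eq_or_ne k j
  · rwa [h.eqL dC d1 hi k1 c1]
  obtain ⟨E, e1, e2⟩ := h.mt kj
  have hE : I E l := by
    by_contra hE
    exact H E hE (h.fixp kj e1 e2 k2 j2)
  obtain rfl : E = C := h.eqP jl e2 c1 hE c2
  rwa [h.eqL dC d1 hi k1 e1]

theorem exists_ax {g : G} {c : P} (a : Ce I g c) : ∃ l, Ax I g l := h.flip.exists_ce a

/-- Elations with axis `l`. -/
def T (l : L) : Subgroup G where
  carrier := {g | ∃ c, I c l ∧ Ce I g c ∧ Ax I g l}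
  one_mem' := by
    obtain ⟨p₁, -⟩ := h.cfg
    obtain ⟨p, hp, -⟩ := h.third l p₁ p₁
    exact ⟨p, hp, (TC G I p l).one_mem⟩
  inv_mem' := fun ⟨c, a, b, d⟩ => ⟨c, a, b.inv, d.inv⟩
  mul_mem' := by
    rintro a b ⟨c, c1, c2, c3⟩ ⟨d, d1, d2, d3⟩
    obtain ⟨A, hA⟩ := h.exists_ce (c3.mul d3)
    by_cases hl : I A l
    · exact ⟨A, hl, hA, c3.mul d3⟩
    refine ⟨c, c1, ?_, c3.mul d3⟩
    have e := h.ce_fix hA
    by_cases b1 : b = 1
    · simpa [b1] using c2
    by_cases a1 : a = 1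
    · rw [a1, one_mul] at e
      rcases h.fix_pt d2 d3 b1 e with rfl | e
      exacts [(hl d1).elim, (hl e).elim]
    obtain rfl | cd := eq_or_ne c d
    · exact c2.mul d2
    exfalso
    obtain ⟨i, i1, i2⟩ := h.jn (show A ≠ c from fun e => hl (e ▸ c1))
    obtain ⟨j, j1, j2⟩ := h.jn (show A ≠ d from fun e => hl (e ▸ d1))
    have e1 : I (b • A) j := (h.incl (d2 j j2)).2 j1
    have e2 : I (b • A) i := by
      rw [← h.incl (c2 i i2), ← mul_smul, e]; exact i1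
    rcases h.un e1 j1 e2 i1 with e3 | rfl
    · rcases h.fix_pt d2 d3 b1 e3 with rfl | e
      exacts [hl d1, hl e]
    · exact hl (h.eqL cd i2 j2 c1 d1 ▸ i1)

theorem mem_T {l : L} {g : G} (a : Ax I g l) (f : ∀ A, ¬I A l → g • A ≠ A) : g ∈ h.T l := by
  obtain ⟨c, hc⟩ := h.exists_ce a
  exact ⟨c, by_contra fun e => f c e (h.ce_fix hc), hc, a⟩

theorem T_free {l : L} {g : G} (hg : g ∈ h.T l) {A : P} (hA : ¬I A l) (gA : g • A = A) :
    g = 1 := by
  obtain ⟨c, c1, c2, c3⟩ := hg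
  by_contra g1
  rcases h.fix_pt c2 c3 g1 gA with rfl | e
  exacts [hA c1, hA e]

theorem T_comm {l : L} {a b : G} {c d : P} (c1 : I c l) (d1 : I d l) (ha : a ∈ TC G I c l)
    (hb : b ∈ TC G I d l) (e : c ≠ d) : a * b = b * a := by
  have h1 := h.ce_conj ha.1.inv b
  have h2 := h.ce_conj hb.1 a
  rw [hb.2 c c1] at h1
  rw [ha.2 d d1] at h2
  have h3 := ha.1.mul h1
  have h4 := h2.mul hb.1.inv
  have := h.two_ce h3 (by simpa [mul_assoc] using h4) e
  calc a * b = a * (b * a⁻¹ * b⁻¹) * (b * a) := by group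
    _ = b * a := by rw [this, one_mul]

/-- A group of elations with a common axis and two different centres is elementary abelian. -/
theorem T_elem [Finite G] {l : L} {a b : G} {c d : P} (c1 : I c l) (d1 : I d l)
    (ha : a ∈ TC G I c l) (hb : b ∈ TC G I d l) (e : c ≠ d) (a1 : a ≠ 1) (b1 : b ≠ 1) :
    (∀ x ∈ h.T l, ∀ y ∈ h.T l, x * y = y * x) ∧ ∃ p : ℕ, p.Prime ∧ ∀ x ∈ h.T l, x ^ p = 1 := by
  have oth : ∀ u, I u l → ∃ z w, I w l ∧ z ∈ TC G I w l ∧ z ≠ 1 ∧ u ≠ w := fun u hu => by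
    obtain rfl | uc := eq_or_ne u c
    exacts [⟨b, d, d1, hb, b1, e⟩, ⟨a, c, c1, ha, a1, uc⟩]
  have prod : ∀ {y z u w}, I u l → I w l → y ∈ TC G I u l → z ∈ TC G I w l → z ≠ 1 → u ≠ w →
      ∃ v, I v l ∧ y * z ∈ TC G I v l ∧ u ≠ v := fun {y z u w} hu hw hy hz z1 uw => by
    obtain ⟨v, v1, v2⟩ := (h.T l).mul_mem ⟨u, hu, hy⟩ ⟨w, hw, hz⟩
    refine ⟨v, v1, v2, fun e => z1 (h.two_ce ?_ hz.1 uw)⟩
    subst e
    simpa using hy.1.inv.mul v2.1
  have comm : ∀ x ∈ h.T l, ∀ y ∈ h.T l, x * y = y * x := by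
    rintro x ⟨u, hu, hx⟩ y ⟨w, hw, hy⟩
    obtain rfl | uw := eq_or_ne u w
    swap; · exact h.T_comm hu hw hx hy uw
    obtain ⟨z, w, hw, hz, z1, uw⟩ := oth u hu
    obtain ⟨v, v1, v2, uv⟩ := prod hu hw hy hz z1 uw
    have e1 := h.T_comm hu v1 hx v2 uv
    have e2 := h.T_comm hu hw hx hz uw
    apply mul_right_cancel (b := z)
    rw [mul_assoc, e1, mul_assoc, mul_assoc, e2]
  refine ⟨comm, ?_⟩
  obtain ⟨p, hp, hd⟩ := Nat.exists_prime_and_dvd (_root_.mt orderOf_eq_one_iff.1 a1)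
  have eo := orderOf_pow_orderOf_div (orderOf_pos a).ne' hd
  have step : ∀ {x y u w}, I u l → I w l → x ∈ TC G I u l → y ∈ TC G I w l → y ≠ 1 → u ≠ w →
      y ^ p = 1 → x ^ p = 1 := fun {x y u w} hu hw hx hy y1 uw yp => by
    obtain ⟨v, v1, v2, uv⟩ := prod hu hw hx hy y1 uw
    have : Commute x y := comm x ⟨u, hu, hx⟩ y ⟨w, hw, hy⟩
    have e1 := ((TC G I v l).pow_mem v2 p).1
    rw [this.mul_pow, yp, mul_one] at e1
    exact h.two_ce ((TC G I u l).pow_mem hx p).1 e1 uv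
  have a' : a ^ (orderOf a / p) ≠ 1 := fun e => hp.ne_one (by rw [← eo, e, orderOf_one])
  have ap : (a ^ (orderOf a / p)) ^ p = 1 := orderOf_dvd_iff_pow_eq_one.1 eo.dvd
  refine ⟨p, hp, ?_⟩
  rintro x ⟨u, hu, hx⟩
  obtain rfl | uc := eq_or_ne u c
  · exact step hu d1 hx hb b1 e (step d1 hu hb ((TC G I u l).pow_mem ha _) a' e.symm ap)
  · exact step hu c1 hx ((TC G I c l).pow_mem ha _) a' uc ap

end CG

end

end H20.OW
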