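import Cfsg.Agent.H20.OW1

/-! Orbit counting for groups of collineations. -/

set_option autoImplicit false

namespace H20.OW

open MulAction Subgroup

variable {G X P L : Type*} [Group G]

section
variable [MulAction G X]

def Ob (K : Subgroup G) (x : X) : Set X := {y | ∃ k ∈ K, k • x = y}

theorem ob_card (K : Subgroup G) (x : X) :
    (Ob K x).ncard * Nat.card (K ⊓ stabilizer G x : Subgroup G) = Nat.card K := by
  have e1 : Ob K x = orbit K x := Set.ext fun y =>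
    ⟨fun ⟨k, h1, h2⟩ => ⟨⟨k, h1⟩, h2⟩, fun ⟨k, h2⟩ => ⟨k, k.2, h2⟩⟩
  have e2 : Nat.card (K ⊓ stabilizer G x : Subgroup G) = Nat.card (stabilizer K x) :=
    Nat.card_congr ⟨fun a => ⟨⟨a.1, a.2.1⟩, a.2.2⟩, fun a => ⟨a.1.1, a.1.2, a.2⟩, fun _ => rfl,
      fun _ => rfl⟩
  rw [e1, e2, ← index_stabilizer, index_mul_card]

theorem dvd_of_orbits [Finite X] (K : Subgroup G) {d : ℕ} (S : Set X)
    (inv : ∀ k ∈ K, ∀ x ∈ S, k • x ∈ S) (hd : ∀ x ∈ S, d ∣ (Ob K x).ncard) : d ∣ S.ncard := by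
  induction hn : S.ncard using Nat.strong_induction_on generalizing S with | _ n ih =>
  subst hn
  rcases S.eq_empty_or_nonempty with rfl | ⟨x, hx⟩
  · simp
  have hs : Ob K x ⊆ S := by rintro _ ⟨k, hk, rfl⟩; exact inv k hk x hx
  have e := Set.ncard_diff_add_ncard_of_subset hs
  have hp : 0 < (Ob K x).ncard :=
    (Set.ncard_pos (Set.toFinite _)).2 ⟨x, ⟨1, one_mem K, one_smul G x⟩⟩
  rw [← e]
  refine dvd_add (ih (S \ Ob K x).ncard (by omega) (S \ Ob K x) (fun k hk y hy => ⟨inv k hk y hy.1, fun ⟨j, hj, e⟩ =>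
    hy.2 ⟨k⁻¹ * j, mul_mem (inv_mem hk) hj, by rw [mul_smul, e, inv_smul_smul]⟩⟩)
    (fun y hy => hd y hy.1) rfl) (hd x hx)

theorem free_dvd [Finite X] [Finite G] {K K₀ : Subgroup G} (hle : K₀ ≤ K) (S : Set X)
    (inv : ∀ k ∈ K, ∀ x ∈ S, k • x ∈ S) (st : ∀ x ∈ S, ∀ k ∈ K, k • x = x ↔ k ∈ K₀) :
    ∃ d, Nat.card K = d * Nat.card K₀ ∧ d ∣ S.ncard := by
  obtain ⟨d, hd⟩ := card_dvd_of_le hle
  refine ⟨d, by rw [hd, mul_comm], dvd_of_orbits K S inv fun x hx => ?_⟩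
  have e := ob_card K x
  have : K ⊓ stabilizer G x = K₀ := le_antisymm (fun k hk => (st x hx k hk.1).1 hk.2)
    fun k hk => ⟨hle hk, (st x hx k (hle hk)).2 hk⟩
  rw [this, hd, mul_comm (Nat.card K₀)] at e
  exact (Nat.eq_of_mul_eq_mul_right Nat.card_pos e).ge.antisymm
    (Nat.eq_of_mul_eq_mul_right Nat.card_pos e).le ▸ dvd_rfl

theorem syl_dvd [Finite G] {p k : ℕ} [Fact p.Prime] (S : Sylow p G) {K : Subgroup G}
    (hle : (S : Subgroup G) ≤ K) (x : X) (hk : p ^ k ∣ (Ob K x).ncard) :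
    p ^ k ∣ (Ob (S : Subgroup G) x).ncard := by
  obtain ⟨j, hj⟩ := IsPGroup.iff_card.1 (S.isPGroup'.to_inf_left (K := stabilizer G x))
  have h1 : p ^ j ∣ Nat.card (K ⊓ stabilizer G x : Subgroup G) :=
    hj ▸ card_dvd_of_le (inf_le_inf_right _ hle)
  have h2 : p ^ (k + j) ∣ Nat.card G := by
    rw [pow_add]
    exact ((mul_dvd_mul hk h1).trans (ob_card K x).dvd).trans (card_subgroup_dvd_card K)
  have h3 := S.pow_dvd_card_of_pow_dvd_card h2
  rw [← ob_card _ x, hj, pow_add] at h3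
  exact Nat.dvd_of_mul_dvd_mul_right (pow_pos (Fact.out : p.Prime).pos j) h3

theorem ob_pow [Finite G] {p : ℕ} [Fact p.Prime] {K : Subgroup G} (hK : IsPGroup p K) (x : X) :
    ∃ j, (Ob K x).ncard = p ^ j := by
  obtain ⟨a, ha⟩ := IsPGroup.iff_card.1 hK
  obtain ⟨j, -, hj⟩ := (Nat.dvd_prime_pow Fact.out).1
    (ha ▸ (Dvd.intro _ (ob_card K x) : (Ob K x).ncard ∣ Nat.card K))
  exact ⟨j, hj⟩

theorem fix_exists [Finite G] [Finite X] {p : ℕ} [Fact p.Prime] {K : Subgroup G}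
    (hK : IsPGroup p K) (S : Set X) (inv : ∀ k ∈ K, ∀ x ∈ S, k • x ∈ S) (hd : ¬ p ∣ S.ncard) :
    ∃ x ∈ S, ∀ k ∈ K, k • x = x := by
  by_contra! H
  refine hd (dvd_of_orbits K S inv fun x hx => ?_)
  obtain ⟨j, hj⟩ := ob_pow hK x
  obtain ⟨k, hk, e⟩ := H x hx
  rw [hj]
  refine dvd_pow_self p ?_
  rintro rfl
  obtain ⟨y, hy⟩ := Set.ncard_eq_one.1 hj
  have h1 : x ∈ Ob K x := ⟨1, one_mem _, one_smul _ _⟩
  have h2 : k • x ∈ Ob K x := ⟨k, hk, rfl⟩
  rw [hy] at h1 h2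
  exact e (h2.trans h1.symm)

end

theorem ext_p [Finite G] {p : ℕ} [Fact p.Prime] {M V B : Subgroup G} (hV : IsPGroup p V)
    (hB : IsPGroup p B) (vM : V ≤ M) (bM : B ≤ M) :
    ∃ R ≤ M, IsPGroup p R ∧ V ≤ R ∧ ∃ m ∈ M, ∀ b ∈ B, m * b * m⁻¹ ∈ R := by
  obtain ⟨S, hS⟩ := (hV.comap_subtype (K := M)).exists_le_sylow
  obtain ⟨S', hS'⟩ := (hB.comap_subtype (K := M)).exists_le_sylow
  obtain ⟨m, rfl⟩ := exists_smul_eq M S' S
  refine ⟨((m • S' : Sylow p M) : Subgroup M).map M.subtype, map_subtype_le _,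
    (m • S').isPGroup'.map _, fun v hv => ⟨⟨v, vM hv⟩, hS hv, rfl⟩, m, m.2, fun b hb =>
      ⟨m * ⟨b, bM hb⟩ * m⁻¹, ?_, rfl⟩⟩
  exact smul_mem_pointwise_smul (⟨b, bM hb⟩ : M) (MulAut.conj m) _ (hS' hb)

theorem ext_syl [Finite G] {p : ℕ} [Fact p.Prime] {M V : Subgroup G} (hV : IsPGroup p V)
    (S : Sylow p G) (vM : V ≤ M) (bM : (S : Subgroup G) ≤ M) :
    ∃ R : Sylow p G, V ≤ R ∧ (R : Subgroup G) ≤ M := by
  obtain ⟨R, h1, h2, h3, m, -, h4⟩ := ext_p hV S.isPGroup' vM bM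
  have : ((m • S : Sylow p G) : Subgroup G) ≤ R := by
    rintro _ ⟨b, hb, rfl⟩
    exact h4 b hb
  have e := (m • S).is_maximal' h2 this
  exact ⟨m • S, e ▸ h3, e ▸ h1⟩

theorem grow [Finite G] {p : ℕ} [Fact p.Prime] {Φ R : Subgroup G} (hR : IsPGroup p R)
    (lt : Φ < R) : ∃ x ∈ R, x ∉ Φ ∧ x ∈ normalizer (Φ : Set G) ∧ x ^ p ∈ Φ := by
  classical
  have := hR.isNilpotent
  obtain ⟨y, hy, hy'⟩ := SetLike.exists_of_lt (Group.normalizerCondition_of_isNilpotent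
    (Φ.subgroupOf R) (lt_top_iff_ne_top.2 fun e => lt.not_ge (subgroupOf_eq_top.1 e)))
  have yn : (y : G) ∈ normalizer (Φ : Set G) := mem_normalizer_fintype fun a ha =>
    (mem_normalizer_iff.1 hy ⟨a, lt.le ha⟩).1 ha
  obtain ⟨k, hk⟩ := hR y
  have ex : ∃ j, (y : G) ^ p ^ j ∈ Φ := ⟨k, by
    rw [show (y : G) ^ p ^ k = 1 from congrArg Subtype.val hk]; exact one_mem _⟩
  obtain ⟨j, hj⟩ : ∃ j, Nat.find ex = j + 1 := Nat.exists_eq_succ_of_ne_zero fun e => hy' (by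
    have := Nat.find_spec ex
    rwa [e, pow_zero, pow_one] at this)
  refine ⟨y ^ p ^ j, pow_mem y.2 _, Nat.find_min ex (by omega), pow_mem yn _, ?_⟩
  rw [← pow_mul, ← pow_succ, ← hj]
  exact Nat.find_spec ex

theorem pg_zp {p k : ℕ} {y : G} (h : y ^ p ^ k = 1) : IsPGroup p (zpowers y) := by
  rintro ⟨_, z, rfl⟩
  refine ⟨k, Subtype.ext ?_⟩
  change (y ^ z) ^ p ^ k = 1
  rw [← zpow_natCast, ← zpow_mul, mul_comm, zpow_mul, zpow_natCast, h, one_zpow]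

theorem exists_pow [Finite G] {p : ℕ} (hp : p.Prime) (y : G) :
    ∃ e, ¬ p ∣ e ∧ IsPGroup p (zpowers (y ^ e)) := by
  obtain ⟨k, e, h1, h2⟩ := Nat.exists_eq_pow_mul_and_not_dvd (orderOf_pos y).ne' p hp.ne_one
  exact ⟨e, h1, pg_zp (k := k) (by rw [← pow_mul, mul_comm, ← h2, pow_orderOf_eq_one])⟩

theorem pow_ne {p k e : ℕ} (hp : p.Prime) {y : G} (h : y ^ p ^ k = 1) (y1 : y ≠ 1)
    (he : ¬ p ∣ e) : y ^ e ≠ 1 := fun h' => y1 (by
  have := pow_gcd_eq_one.2 ⟨h, h'⟩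
  rwa [(Nat.Coprime.pow_left k ((Nat.Prime.coprime_iff_not_dvd hp).2 he)).gcd_eq_one,
    pow_one] at this)

variable [MulAction G P] [MulAction G L]

theorem two_orb [Finite G] [Finite P] [Finite L] (K : Subgroup G)
    (hf : ∀ g : G, {p : P | g • p = p}.ncard = {l : L | g • l = l}.ncard) (x y : P)
    (h2 : ∀ p, p ∈ Ob K x ∨ p ∈ Ob K y) (a b c : L) : b ∈ Ob K a ∨ c ∈ Ob K a ∨ c ∈ Ob K b := by
  classical
  cases nonempty_fintype K
  cases nonempty_fintype P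
  cases nonempty_fintype L
  have e1 := sum_card_fixedBy_eq_card_orbits_mul_card_group K P
  have e2 := sum_card_fixedBy_eq_card_orbits_mul_card_group K L
  have e3 : ∀ g : K, Fintype.card (fixedBy P g) = Fintype.card (fixedBy L g) := fun g => by
    rw [← Nat.card_eq_fintype_card, ← Nat.card_eq_fintype_card]
    exact hf g
  simp_rw [e3] at e1
  have e4 := Nat.eq_of_mul_eq_mul_right Fintype.card_pos (e1.symm.trans e2)
  have h3 : Fintype.card (Quotient (orbitRel K P)) ≤ 2 := by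
    refine (Fintype.card_le_of_surjective (fun i : Bool => Quotient.mk _ (if i then x else y))
      fun q => ?_).trans (by simp)
    induction q using Quotient.ind with | _ p =>
    rcases h2 p with ⟨k, hk, e⟩ | ⟨k, hk, e⟩
    · exact ⟨true, (Quotient.sound (s := orbitRel K P) (a := p) (b := x) ⟨⟨k, hk⟩, e⟩).symm⟩
    · exact ⟨false, (Quotient.sound (s := orbitRel K P) (a := p) (b := y) ⟨⟨k, hk⟩, e⟩).symm⟩
  rw [e4] at h3
  by_contra! H
  have ne : ∀ {u v : L}, v ∉ Ob K u → Quotient.mk (orbitRel K L) u ≠ Quotient.mk _ v :=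
    fun h e => let ⟨k, hk⟩ := Quotient.exact e.symm; h ⟨k, k.2, hk⟩
  exact h3.not_gt (Fintype.two_lt_card_iff.2 ⟨_, _, _, ne H.1, ne H.2.1, ne H.2.2⟩)

variable {I : P → L → Prop} {n : ℕ}

namespace CG

variable [Finite G] [Finite P] [Finite L] (h : CG G I n)
include h

theorem card_TC {c : P} {l : L} (hc : I c l) : Nat.card (TC G I c l) ∣ n := by
  obtain ⟨j, j1, jl, -⟩ := h.thirdL c l l
  obtain ⟨d, e1, e2⟩ := free_dvd (K := TC G I c l) bot_le {p | I p j ∧ p ≠ c}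
    (fun k hk x hx => ⟨(h.incl (hk.1 j j1)).2 hx.1, fun e => hx.2 (by
      rw [← h.ce_fix hk.1] at e; exact smul_left_cancel k e)⟩)
    fun x hx k hk => ⟨fun e => h.T_free ⟨c, hc, hk⟩ (fun e' => hx.2 (h.eqP jl hx.1 j1 e' hc)) e,
      fun e => by rw [mem_bot.1 e, one_smul]⟩
  rwa [h.cl' j1, ← mul_one d, ← card_bot (G := G), ← e1] at e2

theorem el_pow {c : P} {l : L} (hc : I c l) {g : G} (hg : g ∈ TC G I c l) : g ^ n = 1 :=
  orderOf_dvd_iff_pow_eq_one.1 ((orderOf_dvd_natCard _ hg).trans (h.card_TC hc))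

omit [Finite G] in
theorem cnt_aux (g : G) : ∑ᶠ p : P, {l | I p l ∧ I (g • p) l}.ncard =
    {p : P | g • p = p}.ncard * n + (n ^ 2 + n + 1) := by
  classical
  cases nonempty_fintype P
  have : ∀ p : P, {l | I p l ∧ I (g • p) l}.ncard = (if g • p = p then n else 0) + 1 := fun p => by
    split_ifs with e
    · simp only [e, and_self, h.cp]
    · obtain ⟨j, j1, j2⟩ := h.jn e
      exact Set.ncard_eq_one.2 ⟨j, Set.eq_singleton_iff_unique_mem.2
        ⟨⟨j2, j1⟩, fun l hl => h.eqL e hl.2 hl.1 j1 j2⟩⟩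
  rw [finsum_eq_sum_of_fintype]
  simp only [this, Finset.sum_add_distrib, Finset.sum_ite, Finset.sum_const, smul_eq_mul, mul_zero,
    add_zero, mul_one, Finset.card_univ]
  rw [← Nat.card_eq_fintype_card, h.cP, Set.ncard_eq_toFinset_card']
  simp

omit [Finite G] in
/-- A collineation fixes as many points as lines. -/
theorem fix_eq (g : G) : {p : P | g • p = p}.ncard = {l : L | g • l = l}.ncard := by
  classical
  cases nonempty_fintype P
  cases nonempty_fintype L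
  have e1 := h.cnt_aux g
  have e2 := h.flip.cnt_aux g⁻¹
  have e3 : ∑ᶠ p : P, {l | I p l ∧ I (g • p) l}.ncard =
      ∑ᶠ l : L, {p | I p l ∧ I p (g⁻¹ • l)}.ncard := by
    rw [finsum_eq_sum_of_fintype, finsum_eq_sum_of_fintype]
    simp only [Set.ncard_eq_toFinset_card', Set.toFinset_setOf, Finset.card_filter]
    rw [Finset.sum_comm]
    refine Finset.sum_congr rfl fun l _ => Finset.sum_congr rfl fun p _ => ?_
    rw [← h.inc' g (l := g⁻¹ • l), smul_inv_smul]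
  have e4 : {l : L | g⁻¹ • l = l} = {l : L | g • l = l} := by
    ext l; exact ⟨fun e => by simpa using finv e, finv⟩
  rw [e4] at e2
  have := e1.symm.trans (e3.trans e2)
  exact Nat.eq_of_mul_eq_mul_right (by have := h.two; omega) (Nat.add_right_cancel this)

end CG

/-- Double transitivity. -/
def Two (G X : Type*) [Group G] [MulAction G X] : Prop :=
  ∀ {x y x' y' : X}, x ≠ y → x' ≠ y' → ∃ g : G, g • x = x' ∧ g • y = y'

namespace CG

variable [Finite G] [Finite P] [Finite L] (h : CG G I n) (h2 : Two G P)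
include h h2

theorem flag {x y : P} {l m : L} (a : I x l) (b : I y m) : ∃ g : G, g • x = y ∧ g • l = m := by
  obtain ⟨x', c, e, -⟩ := h.third l x x
  obtain ⟨y', d, e', -⟩ := h.third m y y
  obtain ⟨g, rfl, rfl⟩ := h2 e e'
  exact ⟨g, rfl, h.eqL e' (h.inc g c) (h.inc g a) d b⟩

theorem aflag {x y : P} {l m : L} (a : ¬I x l) (b : ¬I y m) : ∃ g : G, g • x = y ∧ g • l = m := by
  obtain ⟨j, hj, -⟩ := h.thirdL x l l
  obtain ⟨k, hk, -⟩ := h.thirdL y l l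
  obtain ⟨g, rfl, -⟩ := h.flag h2 hj hk
  obtain ⟨z, -, hz, -⟩ := h.third l x x
  rcases two_orb (stabilizer G x) h.fix_eq x z (fun p => by
    obtain rfl | e := eq_or_ne p x
    · exact .inl ⟨1, one_mem _, one_smul _ _⟩
    · obtain ⟨g, h1, h2⟩ := h2 hz.symm e.symm
      exact .inr ⟨g, h1, h2⟩) j l (g⁻¹ • m) with ⟨k, h1, e⟩ | ⟨k, h1, e⟩ | ⟨k, h1, e⟩
  · exact (a (e ▸ (h.incp h1).2 hj)).elim
  · refine (b ?_).elim
    have := h.inc g (e ▸ (h.incp h1).2 hj)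
    rwa [smul_inv_smul] at this
  · exact ⟨g * k, by rw [mul_smul, h1], by rw [mul_smul, e, smul_inv_smul]⟩

theorem twoL : Two G L := by
  intro l m l' m' e e'
  obtain ⟨x, hx, -⟩ := h.mt e
  obtain ⟨y, hy, -⟩ := h.mt e'
  obtain ⟨g, -, rfl⟩ := h.flag h2 hx hy
  obtain ⟨z, hz⟩ := h.off l
  rcases two_orb (stabilizer G l) (fun g => (h.fix_eq g).symm |>.symm) x z (fun p => by
    by_cases hp : I p l
    · obtain ⟨g, h1, h2⟩ := h.flag h2 hx hp
      exact .inl ⟨g, h2, h1⟩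
    · obtain ⟨g, h1, h2⟩ := h.aflag h2 hz hp
      exact .inr ⟨g, h2, h1⟩) l m (g⁻¹ • m') with ⟨k, h1, e1⟩ | ⟨k, h1, e1⟩ | ⟨k, h1, e1⟩
  · exact (e (h1.symm.trans e1)).elim
  · exact (e' (by rw [← h1, e1, smul_inv_smul])).elim
  · exact ⟨g * k, by rw [mul_smul, h1], by rw [mul_smul, e1, smul_inv_smul]⟩

end CG

end H20.OW
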