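import Cfsg.Agent.H20.OW2

/-! Involutions of a finite projective plane; planes with many involutory homologies. -/

set_option autoImplicit false

namespace H20.OW

open MulAction Subgroup

variable {G P L : Type*} [Group G]

theorem ncard_rel {α β : Type*} [Finite α] [Finite β] {S : Set α} {T : Set β} (R : α → β → Prop)
    (h1 : ∀ a ∈ S, ∃ b ∈ T, R a b) (h2 : ∀ b ∈ T, ∃ a ∈ S, R a b)
    (u1 : ∀ a ∈ S, ∀ a' ∈ S, ∀ b ∈ T, R a b → R a' b → a = a')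
    (u2 : ∀ b ∈ T, ∀ b' ∈ T, ∀ a ∈ S, R a b → R a b' → b = b') : S.ncard = T.ncard := by
  choose f f1 f2 using h1
  refine Set.ncard_congr f f1 (fun a a' ha ha' e => u1 a ha a' ha' _ (f1 a ha) (f2 a ha)
    (e ▸ f2 a' ha')) fun b hb => ?_
  obtain ⟨a, ha, r⟩ := h2 b hb
  exact ⟨a, ha, u2 _ (f1 a ha) b hb a ha (f2 a ha) r⟩

theorem card_ne1 [Finite G] (K : Subgroup G) : {g | g ∈ K ∧ g ≠ 1}.ncard + 1 = Nat.card K := by
  have : {g | g ∈ K ∧ g ≠ 1} = (K : Set G) \ {1} := rfl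
  rw [this, Set.ncard_diff_singleton_add_one K.one_mem]
  rfl

variable [MulAction G P] [MulAction G L]

/-- `g` fixes a configuration. -/
def Fc (g : G) (p₁ p₂ p₃ : P) (l₁ l₂ l₃ : L) : Prop :=
  g • p₁ = p₁ ∧ g • p₂ = p₂ ∧ g • p₃ = p₃ ∧ g • l₁ = l₁ ∧ g • l₂ = l₂ ∧ g • l₃ = l₃

/-- An involutory homology. -/
structure Hm (I : P → L → Prop) (σ : G) (A : P) (l : L) : Prop where
  sq : σ * σ = 1
  ne : σ ≠ 1
  off : ¬I A l
  ce : Ce I σ A
  ax : Ax I σ l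

variable {I : P → L → Prop} {n : ℕ}

theorem Hm.flip {σ : G} {A : P} {l : L} (a : Hm I σ A l) : Hm (flip I) σ l A :=
  ⟨a.sq, a.ne, a.off, a.ax, a.ce⟩

theorem ss {X : Type*} [MulAction G X] {σ : G} (s : σ * σ = 1) (x : X) : σ • σ • x = x := by
  rw [← mul_smul, s, one_smul]

namespace CG

variable (h : CG G I n)
include h

theorem inv_line {σ : G} (s : σ * σ = 1) {B : P} (e : σ • B ≠ B) : ∃ j, I B j ∧ σ • j = j := by
  obtain ⟨j, j1, j2⟩ := h.jn e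
  exact ⟨j, j2, h.eqL e (h.inc σ j2) (ss s B ▸ h.inc σ j1) j1 j2⟩

theorem cnt [Finite P] [Finite L] {σ : G} (s : σ * σ = 1) {l : L} (hl : σ • l = l) {B : P}
    (hB : I B l) (e : σ • B ≠ B) : {p | ¬I p l ∧ σ • p = p}.ncard = n := by
  rw [← h.cp' hB]
  refine ncard_rel I (fun p hp => ?_) (fun j hj => ?_) (fun p hp q hq j hj a b => ?_)
    fun j hj k hk p hp a b => h.eqL (fun e : p = B => hp.1 (e ▸ hB)) a hj.1 b hk.1
  · obtain ⟨j, j1, j2⟩ := h.jn (show p ≠ B from fun e => hp.1 (e ▸ hB))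
    exact ⟨j, ⟨j2, fun e => hp.1 (e ▸ j1)⟩, j1⟩
  · obtain ⟨p, p1, p2⟩ := h.flip.inv_line s (B := j) fun e' => e (h.fixp hj.2 hj.1 hB e' hl)
    exact ⟨p, ⟨fun e' => e (h.eqP hj.2 p1 hj.1 e' hB ▸ p2), p2⟩, p1⟩
  · by_contra e'
    exact e (h.fixp hj.2 hj.1 hB (h.fixl e' a b hp.2 hq.2) hl)

theorem inv_cases [Finite P] [Finite L] {σ : G} (s : σ * σ = 1) :
    (∃ l, Ax I σ l) ∨ ∃ p₁ p₂ p₃ l₁ l₂ l₃, Cf I p₁ p₂ p₃ l₁ l₂ l₃ ∧ Fc σ p₁ p₂ p₃ l₁ l₂ l₃ := by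
  refine or_iff_not_imp_left.2 fun H => ?_
  obtain ⟨B, hB⟩ : ∃ B : P, σ • B ≠ B := by
    by_contra! H'
    obtain ⟨-, -, -, l, -⟩ := h.cfg
    exact H ⟨l, fun p _ => H' p⟩
  obtain ⟨l, l1, l2⟩ := h.inv_line s hB
  have c := h.cnt s l2 l1 hB
  obtain ⟨a, ha, b, hb, ab⟩ := (Set.one_lt_ncard (s := {p | ¬I p l ∧ σ • p = p})).1
    (by rw [c]; exact h.two)
  obtain ⟨j, j1, j2⟩ := h.jn ab
  have jl : j ≠ l := fun e => ha.1 (e ▸ j1)
  have fj := h.fixl ab j1 j2 ha.2 hb.2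
  obtain ⟨d, hd, dj⟩ : ∃ d, (¬I d l ∧ σ • d = d) ∧ ¬I d j := by
    by_contra! H'
    obtain ⟨D, d1, d2⟩ := h.mt jl
    have e := Set.eq_of_subset_of_ncard_le (s := {p | ¬I p l ∧ σ • p = p})
      (t := {p | I p j ∧ p ≠ D}) (fun p hp => ⟨H' p hp, fun e => hp.1 (e ▸ d2)⟩)
      (by rw [c, h.cl' d1])
    refine H ⟨j, fun p hp => ?_⟩
    obtain rfl | pD := eq_or_ne p D
    · exact h.fixp jl d1 d2 fj l2
    · exact (e.ge ⟨hp, pD⟩).2
  have ad : a ≠ d := fun e => dj (e ▸ j1)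
  have bd : b ≠ d := fun e => dj (e ▸ j2)
  obtain ⟨i, i1, i2⟩ := h.jn ad
  obtain ⟨k, k1, k2⟩ := h.jn bd
  have kl : k ≠ l := fun e => hb.1 (e ▸ k1)
  obtain ⟨q, q1, q2⟩ := h.mt kl
  have bi : ¬I b i := fun e => dj (h.eqL ab i1 e j1 j2 ▸ i2)
  refine ⟨q, a, b, l, j, i, ⟨fun e => ?_, fun e => ?_, ha.1, j1, i1, hb.1, j2, bi⟩,
    h.fixp kl q1 q2 (h.fixl bd k1 k2 hb.2 hd.2) l2, ha.2, hb.2, l2, fj,
    h.fixl ad i1 i2 ha.2 hd.2⟩
  · exact hb.1 (h.eqP (fun e : k = j => dj (e ▸ k2)) q1 k1 e j2 ▸ q2)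
  · exact hd.1 (h.eqP (fun e : k = i => bi (e ▸ k1)) q1 k2 e i2 ▸ q2)

theorem hm_conj {σ : G} {A : P} {l : L} (a : Hm I σ A l) (x : G) :
    Hm I (x * σ * x⁻¹) (x • A) (x • l) :=
  ⟨by rw [conj_mul, a.sq]; simp, by simpa using a.ne, fun e => a.off ((h.inc' x).1 e),
    h.ce_conj a.ce x, h.ax_conj a.ax x⟩

theorem andre {σ τ : G} {A B : P} {l : L} (a : Hm I σ A l) (b : Hm I τ B l) (e : A ≠ B) :
    σ * τ ∈ h.T l ∧ σ * τ ≠ 1 := by
  have r1 : σ * τ ≠ 1 := fun e' => b.ne (h.two_ce (by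
    rw [eq_inv_of_mul_eq_one_right e']; exact a.ce.inv) b.ce e)
  refine ⟨h.mem_T (a.ax.mul b.ax) fun D hD f => ?_, r1⟩
  have c := h.ax_ce (a.ax.mul b.ax) hD f
  have c' := h.ce_conj c σ
  have e1 : σ * (σ * τ) * σ⁻¹ = (σ * τ)⁻¹ := by
    rw [← mul_assoc, a.sq, one_mul, mul_inv_rev, inv_eq_of_mul_eq_one_right b.sq]
  rw [e1] at c'
  have f1 : σ • D = D := by_contra fun e' => r1 (inv_eq_one.1 (h.two_ce c' c.inv e'))
  have f2 : τ • D = D := by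
    rw [mul_smul] at f
    exact smul_left_cancel σ (f.trans f1.symm)
  exact e (((h.fix_pt a.ce a.ax a.ne f1).resolve_right hD).symm.trans
    ((h.fix_pt b.ce b.ax b.ne f2).resolve_right hD))

theorem keyK {g σ : G} {Y : P} {l k : L} (a : Ax I g l) (hY : I Y l)
    (t : ∀ x ∈ TC G I Y l, x = 1) (s : Hm I σ Y k) : g • k = k := by
  have c1 := h.ce_conj s.ce.inv g
  rw [a Y hY] at c1
  have c2 := h.ax_conj a σ
  rw [s.ce l hY] at c2
  have e := t (σ * (g * σ⁻¹ * g⁻¹)) ⟨s.ce.mul c1, by simpa [mul_assoc] using c2.mul a.inv⟩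
  have c3 := h.ax_conj s.ax.inv g
  rw [← inv_eq_of_mul_eq_one_right e] at c3
  by_contra e'
  exact s.ne (inv_eq_one.1 (h.two_ax c3 s.ax.inv e'))

variable [Finite G] [Finite P] [Finite L]

theorem hm_of_ax (o : Odd n) {σ : G} (s : σ * σ = 1) (s1 : σ ≠ 1) {l : L} (a : Ax I σ l) :
    ∃ A, Hm I σ A l := by
  obtain ⟨c, hc⟩ := h.exists_ce a
  refine ⟨c, s, s1, fun e => s1 ?_, hc, a⟩
  obtain ⟨k, hk⟩ := o
  have := h.el_pow e ⟨hc, a⟩
  rwa [hk, pow_succ, pow_mul, pow_two, s, one_pow, one_mul] at this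

end CG

structure HH (G : Type*) [Group G] [MulAction G P] [MulAction G L] (I : P → L → Prop) (n : ℕ) :
    Prop extends CG G I n where
  odd : Odd n
  all : ∀ σ : G, σ * σ = 1 → σ ≠ 1 → ∃ l, Ax I σ l
  pp : ∀ {p q : P}, p ≠ q → ∃ σ : G, σ * σ = 1 ∧ σ ≠ 1 ∧ σ • p = p ∧ σ • q = q
  ll : ∀ {p q : L}, p ≠ q → ∃ σ : G, σ * σ = 1 ∧ σ ≠ 1 ∧ σ • p = p ∧ σ • q = q

namespace HH

variable [Finite G] [Finite P] [Finite L] (h : HH G I n)
include h

omit [Finite G] [Finite P] [Finite L] in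
theorem flip : HH G (flip I) n :=
  ⟨h.toCG.flip, h.odd, fun σ a b => let ⟨_, c⟩ := h.all σ a b; h.exists_ce c, h.ll, h.pp⟩

theorem hm {σ : G} (s : σ * σ = 1) (s1 : σ ≠ 1) : ∃ A l, Hm I σ A l :=
  let ⟨l, a⟩ := h.all σ s s1; let ⟨A, b⟩ := h.hm_of_ax h.odd s s1 a; ⟨A, l, b⟩

theorem axial_of {σ τ : G} {A B : P} {l k j : L} (a : Hm I σ A l) (b : Hm I τ B k) (hB : I B l)
    (hA : I A k) (jA : I A j) (jB : I B j) : ∃ (ρ : G) (C : P), Hm I ρ C j := by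
  have e : A ≠ B := fun e => a.off (e ▸ hB)
  have c1 := h.ce_conj a.ce.inv τ
  rw [b.ax A hA] at c1
  have c2 := h.ce_conj b.ce σ
  rw [a.ax B hB] at c2
  have e1 := h.two_ce (a.ce.mul c1) (by simpa [mul_assoc] using c2.mul b.ce.inv) e
  have cm : σ * τ = τ * σ := by
    calc σ * τ = σ * (τ * σ⁻¹ * τ⁻¹) * (τ * σ) := by group
      _ = τ * σ := by rw [e1, one_mul]
  have r1 : σ * τ ≠ 1 := fun e' => b.ne (h.two_ce (by
    rw [eq_inv_of_mul_eq_one_right e']; exact a.ce.inv) b.ce e)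
  obtain ⟨C, m, r⟩ := h.hm (σ := σ * τ) (by
    rw [mul_assoc, ← mul_assoc τ, ← cm, mul_assoc, b.sq, mul_one, a.sq]) r1
  rcases h.fix_pt r.ce r.ax r1 (fmul (h.ce_fix a.ce) (b.ax A hA)) with rfl | h1
  · exact (b.ne (h.two_ce (by simpa using a.ce.inv.mul r.ce) b.ce e)).elim
  rcases h.fix_pt r.ce r.ax r1 (fmul (a.ax B hB) (h.ce_fix b.ce)) with rfl | h2
  · exact (a.ne (h.two_ce a.ce (by simpa using r.ce.mul b.ce.inv) e)).elim
  exact ⟨_, C, h.eqL e h1 h2 jA jB ▸ r⟩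

theorem axial (l : L) : ∃ (σ : G) (A : P), Hm I σ A l := by
  by_contra H
  let R : P → P → Prop := fun p q => ∃ (σ : G) (k : L), Hm I σ p k ∧ I q k
  have tot : ∀ {p q}, I p l → I q l → p ≠ q → R p q ∨ R q p := fun {p q} hp hq e => by
    obtain ⟨σ, s, s1, f1, f2⟩ := h.pp e
    obtain ⟨A, k, a⟩ := h.hm s s1
    rcases h.fix_pt a.ce a.ax s1 f1 with rfl | h1 <;>
      rcases h.fix_pt a.ce a.ax s1 f2 with rfl | h2
    · exact (e rfl).elim
    · exact .inl ⟨σ, k, a, h2⟩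
    · exact .inr ⟨σ, k, a, h1⟩
    · exact (H ⟨σ, A, h.eqL e h1 h2 hp hq ▸ a⟩).elim
  have asy : ∀ {p q}, I p l → I q l → R p q → R q p → False :=
    fun hp hq ⟨_, _, a, b⟩ ⟨_, _, c, d⟩ => H (h.axial_of a c b d hp hq)
  have cj : ∀ (g : G) {p q}, R p q → R (g • p) (g • q) := fun g _ _ ⟨_, _, a, b⟩ =>
    ⟨_, _, h.hm_conj a g, h.inc g b⟩
  have key : ∀ {p q}, I p l → I q l → R p q → False := fun {p q} hp hq ⟨σ, k, a, b⟩ => by
    obtain ⟨x, hx, xp, xq⟩ := h.third l p q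
    have e : σ • x ≠ x := fun e => by
      rcases h.fix_pt a.ce a.ax a.ne e with e | e
      exacts [xp e, a.off (h.eqL xq hx hq e b ▸ hp)]
    have hx' : I (σ • x) l := (h.incl (a.ce l hp)).2 hx
    rcases tot hx' hx e with r | r
    · exact asy hx' hx r (by simpa only [ss a.sq] using cj σ r)
    · exact asy hx hx' r (by simpa only [ss a.sq] using cj σ r)
  obtain ⟨p₁, -⟩ := h.cfg
  obtain ⟨p, hp, -⟩ := h.third l p₁ p₁
  obtain ⟨q, hq, e, -⟩ := h.third l p p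
  exact (tot hq hp e).elim (key hq hp) (key hp hq)

theorem central (A : P) : ∃ (σ : G) (l : L), Hm I σ A l :=
  let ⟨σ, l, a⟩ := h.flip.axial A; ⟨σ, l, a.flip⟩

theorem exists_el : ∃ (τ : G) (c : P) (l : L), I c l ∧ τ ∈ TC G I c l ∧ τ ≠ 1 := by
  classical
  by_contra! H
  choose s c hs using h.axial
  have uq : ∀ {σ : G} {A l}, Hm I σ A l → A = c l := fun a => by
    by_contra e
    obtain ⟨⟨d, d1, d2⟩, r⟩ := h.andre a (hs _) e
    exact r (H _ d _ d1 d2)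
  have inj : ∀ {l m}, l ≠ m → c l ≠ c m := fun {l m} e e' => by
    obtain ⟨⟨d, d1, d2⟩, r⟩ := h.flip.andre (hs l).flip (e' ▸ (hs m).flip) e
    exact r (H _ _ d d1 ⟨d2.2, d2.1⟩)
  have sy : ∀ {l m}, I (c l) m → I (c m) l := fun {l m} e => by
    have a := h.hm_conj (hs m) (s l)
    rw [(hs l).ce m e] at a
    rcases h.fix_pt (hs l).ce (hs l).ax (hs l).ne (uq a) with e' | e'
    exacts [((hs m).off (e' ▸ e)).elim, e']
  cases nonempty_fintype L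
  obtain ⟨p, hp, hd⟩ := Nat.exists_prime_and_dvd (show n ≠ 1 by have := h.two; omega)
  haveI := Fact.mk hp
  have n0 : (n : ZMod p) = 0 := (ZMod.natCast_eq_zero_iff _ _).2 hd
  let A : Matrix L L (ZMod p) := Matrix.of fun l m => if I (c l) m then 1 else 0
  let J : Matrix L L (ZMod p) := Matrix.of fun _ _ => 1
  have row : ∀ l, ∑ m, (if I (c l) m then (1 : ZMod p) else 0) = 1 := fun l => by
    have := h.cp (c l)
    rw [Set.ncard_eq_toFinset_card', Set.toFinset_setOf] at this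
    rw [Finset.sum_boole, this]; simp [n0]
  have AJ : A * J = J := by
    ext l m; simpa [A, J, Matrix.mul_apply] using row l
  have AA : A * A = J := by
    ext l m
    simp only [A, J, Matrix.mul_apply, Matrix.of_apply]
    obtain rfl | e := eq_or_ne l m
    · refine .trans (Finset.sum_congr rfl fun k _ => ?_) (row l)
      by_cases e : I (c l) k
      · simp [e, sy e]
      · simp [e]
    · obtain ⟨j, j1, j2⟩ := h.jn (inj e)
      rw [Finset.sum_eq_single j (fun k _ kj => ?_) (by simp)]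
      · simp [j1, sy j2]
      · by_cases e1 : I (c l) k
        · rw [if_neg fun e2 => kj (h.eqL (inj e) e1 (sy e2) j1 j2), mul_zero]
        · simp [e1]
  have pw : ∀ k, A ^ (k + 2) = J := fun k => by
    induction k with
    | zero => rw [zero_add, pow_two, AA]
    | succ k ih => rw [add_right_comm, pow_succ', ih, AJ]
  have t := ZMod.trace_pow_card A
  obtain ⟨k, hk⟩ := Nat.exists_eq_add_of_le' hp.two_le
  have t0 : A.trace = 0 := Finset.sum_eq_zero fun l _ => if_neg (hs l).off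
  rw [t0, zero_pow hp.ne_zero, show A ^ p = J from (congrArg (A ^ ·) hk).trans (pw k)] at t
  have t1 : J.trace = (Fintype.card L : ZMod p) := by simp [J, Matrix.trace]
  rw [t1, ← Nat.card_eq_fintype_card, h.cL] at t
  simp [n0] at t

/-- The order of the plane is a prime power. -/
theorem prime_pow : ∃ p r : ℕ, p.Prime ∧ n = p ^ r := by
  classical
  obtain ⟨τ, C, l, hC, hτ, t1⟩ := h.exists_el
  suffices ∃ (p : ℕ) (K : Subgroup G), p.Prime ∧ (∀ x ∈ K, x ^ p = 1) ∧ n ∣ Nat.card K by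
    obtain ⟨p, K, hp, h1, h2⟩ := this
    haveI := Fact.mk hp
    obtain ⟨a, ha⟩ := IsPGroup.iff_card.1
      (show IsPGroup p K from fun x => ⟨1, Subtype.ext (by simpa using h1 x x.2)⟩)
    obtain ⟨r, -, hr⟩ := (Nat.dvd_prime_pow hp).1 (ha ▸ h2)
    exact ⟨p, r, hp, hr⟩
  by_cases B : ∃ Y, I Y l ∧ C ≠ Y ∧ ∃ x ∈ TC G I Y l, x ≠ 1
  · obtain ⟨Y, hY, CY, x, hx, x1⟩ := B
    obtain ⟨-, p, hp, e⟩ := h.T_elem hC hY hτ hx CY t1 x1
    refine ⟨p, h.T l, hp, e, ?_⟩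
    have nt : ∀ Z, I Z l → 2 ≤ Nat.card (TC G I Z l) := fun Z hZ => by
      refine (one_lt_card_iff_ne_bot _).2 fun e => ?_
      have t : ∀ x ∈ TC G I Z l, x = 1 := fun x hx => mem_bot.1 (e ▸ hx)
      obtain ⟨σ, k, s⟩ := h.central Z
      rcases h.fix_ln hτ.1 hτ.2 t1 (h.keyK hτ.2 hZ t s) with rfl | h1
      · exact s.off hZ
      rcases h.fix_ln hx.1 hx.2 x1 (h.keyK hx.2 hZ t s) with rfl | h2
      · exact s.off hZ
      exact s.off (h.eqL CY hC hY h1 h2 ▸ hZ)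
    obtain ⟨Z, hZ, mn⟩ := Set.exists_min_image {Z | I Z l} (fun Z => Nat.card (TC G I Z l))
      (Set.toFinite _) ⟨C, hC⟩
    obtain ⟨d, d1, d2⟩ := free_dvd (K := h.T l) (K₀ := TC G I Z l) (fun g hg => ⟨Z, hZ, hg⟩)
      {j | I Z j ∧ j ≠ l} (fun k ⟨_, _, _, a⟩ j hj => ⟨(h.incp (a Z hZ)).2 hj.1, fun e => hj.2 (by
        rw [← h.ax_fix a] at e; exact smul_left_cancel k e)⟩)
      fun j hj k ⟨c, c1, c2, c3⟩ => ⟨fun e => by
        obtain rfl | k1 := eq_or_ne k 1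
        · exact one_mem _
        · exact ⟨h.eqP hj.2 ((h.fix_ln c2 c3 k1 e).resolve_left hj.2) hj.1 c1 hZ ▸ c2, c3⟩,
        fun e => e.1 j hj.1⟩
    rw [h.cp' hZ] at d2
    cases nonempty_fintype P
    cases nonempty_fintype G
    have lb : (n + 1) * (Nat.card (TC G I Z l) - 1) ≤ Nat.card (h.T l) - 1 := by
      let F : P → Finset G := fun W => {g | g ∈ TC G I W l ∧ g ≠ 1}.toFinset
      have e1 : ∀ W, (F W).card = Nat.card (TC G I W l) - 1 := fun W => by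
        rw [← card_ne1, Set.ncard_eq_toFinset_card']; rfl
      have e2 := Finset.card_biUnion (s := {W | I W l}.toFinset) (t := F) fun a _ b _ ab =>
        Finset.disjoint_left.2 fun g h1 h2 => (Set.mem_toFinset.1 h1).2
          (h.two_ce (Set.mem_toFinset.1 h1).1.1 (Set.mem_toFinset.1 h2).1.1 ab)
      have e3 : ({W | I W l}.toFinset.biUnion F).card ≤ Nat.card (h.T l) - 1 := by
        rw [← card_ne1, Set.ncard_eq_toFinset_card']
        refine Finset.card_le_card fun g hg => ?_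
        obtain ⟨W, h1, h2⟩ := Finset.mem_biUnion.1 hg
        rw [Set.mem_toFinset] at h1 h2 ⊢
        exact ⟨⟨W, h1, h2.1⟩, h2.2⟩
      refine le_trans ?_ (e2 ▸ e3)
      rw [← h.cl l, Set.ncard_eq_toFinset_card', ← smul_eq_mul]
      exact Finset.card_nsmul_le_sum _ _ _ fun W hW => by
        rw [e1]; exact Nat.sub_le_sub_right (mn W (Set.mem_toFinset.1 hW)) 1
    have h2 := nt Z hZ
    obtain ⟨f, hf⟩ := d2
    obtain ⟨u, hu⟩ := Nat.exists_eq_add_of_le' h2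
    rw [d1, hu] at lb
    rw [d1]
    obtain rfl : f = 1 := by
      have := h.two
      by_contra f1
      have f0 : f ≠ 0 := by rintro rfl; omega
      have : d * 2 ≤ n := hf ▸ Nat.mul_le_mul_left d (by omega)
      have e : u + 2 - 1 = u + 1 := rfl
      rw [e] at lb
      have : (n + 1) * (u + 1) ≤ d * (u + 2) := by omega
      nlinarith
    exact Dvd.intro _ (by rw [hf, mul_one d])
  push Not at B
  obtain ⟨ρ, A, r⟩ := h.axial l
  have CA : C ≠ A := fun e => r.off (e ▸ hC)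
  obtain ⟨j, j1, j2⟩ := h.jn CA
  have lj : l ≠ j := fun e => r.off (e ▸ j2)
  have ex : ∀ Y, I Y l ∧ Y ≠ C → ∃ σ : G, Hm I σ Y j := fun Y ⟨hY, YC⟩ => by
    obtain ⟨σ, k, s⟩ := h.central Y
    have kl : k ≠ l := fun e => s.off (e ▸ hY)
    exact ⟨σ, h.eqL CA ((h.fix_ln hτ.1 hτ.2 t1 (h.keyK hτ.2 hY (B Y hY YC.symm) s)).resolve_left kl)
      ((h.fix_ln r.ce r.ax r.ne (h.keyK r.ax hY (B Y hY YC.symm) s)).resolve_left kl) j1 j2 ▸ s⟩
  choose! s hs using ex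
  obtain ⟨Y, hY, YC, -⟩ := h.third l C C
  obtain ⟨Y', hY', YC', YY⟩ := h.third l C Y
  have mem : ∀ W, I W l ∧ W ≠ C → s Y * s W ∈ TC G I C j := fun W hW => by
    obtain rfl | e := eq_or_ne Y W
    · rw [(hs Y hW).sq]; exact one_mem _
    obtain ⟨⟨c, c1, c2, c3⟩, r1⟩ := h.andre (hs Y ⟨hY, YC⟩) (hs W hW) e
    exact ⟨h.eqP lj ((h.fix_ln c2 c3 r1 (fmul ((hs Y ⟨hY, YC⟩).ce l hY)
      ((hs W hW).ce l hW.1))).resolve_left lj) hC c1 j1 ▸ c2, c3⟩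
  have le : n ≤ Nat.card (TC G I C j) := by
    rw [← h.cl' hC]
    refine Set.ncard_le_ncard_of_injOn (t := (TC G I C j : Set G)) (fun W => s Y * s W) mem
      fun W hW W' hW' e => ?_
    by_contra e'
    exact (hs W hW).ne (h.two_ce (hs W hW).ce (mul_left_cancel e ▸ (hs W' hW').ce) e')
  obtain ⟨-, p, hp, e⟩ := h.flip.T_elem hC j1 ⟨hτ.2, hτ.1⟩
    ⟨(mem Y' ⟨hY', YC'⟩).2, (mem Y' ⟨hY', YC'⟩).1⟩ lj t1
    (h.andre (hs Y ⟨hY, YC⟩) (hs Y' ⟨hY', YC'⟩) YY.symm).2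
  exact ⟨p, TC G I C j, hp, fun x hx => e x ⟨j, j1, hx.2, hx.1⟩,
    (le.antisymm (Nat.le_of_dvd (by have := h.two; omega) (h.card_TC j1))).dvd⟩

end HH

end H20.OW
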