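import Cfsg.Agent.H20.OW3

/-! Subplanes fixed by a group of collineations. -/

set_option autoImplicit false

namespace H20.OW

open MulAction Subgroup

universe u v

theorem exists_faithful {N : Type*} {P : Type u} {L : Type v} [Group N] [MulAction N P]
    [MulAction N L] [Finite P] [Finite L] {I : P → L → Prop} {n : ℕ} (h : PP I n)
    (inc : ∀ (g : N) {p l}, I p l → I (g • p) (g • l)) :
    ∃ (Δ : Type (max u v)) (_ : Group Δ) (_ : Finite Δ) (_ : MulAction Δ P) (_ : MulAction Δ L)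
      (φ : N →* Δ), Function.Surjective φ ∧ (∀ g (p : P), φ g • p = g • p) ∧
        (∀ g (l : L), φ g • l = g • l) ∧ CG Δ I n := by
  let ψ := (toPermHom N P).prod (toPermHom N L)
  letI : MulAction ψ.range P := MulAction.compHom P ((MonoidHom.fst _ _).comp ψ.range.subtype)
  letI : MulAction ψ.range L := MulAction.compHom L ((MonoidHom.snd _ _).comp ψ.range.subtype)
  refine ⟨ψ.range, inferInstance, inferInstance, inferInstance, inferInstance, ψ.rangeRestrict,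
    ψ.rangeRestrict_surjective, fun _ _ => rfl, fun _ _ => rfl, h, ?_, fun g a b =>
      Subtype.ext (Prod.ext (Equiv.ext a) (Equiv.ext b))⟩
  rintro ⟨_, g, rfl⟩ p l e
  exact inc g e

variable {G : Type*} {P : Type u} {L : Type v} [Group G]

abbrev Fx (H : Subgroup G) (X : Type*) [MulAction G X] := {x : X // ∀ h ∈ H, h • x = x}

instance {H : Subgroup G} {X : Type*} [MulAction G X] :
    MulAction (normalizer (H : Set G)) (Fx H X) where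
  smul g x := ⟨g.1 • x.1, fun h hh => by
    have := x.2 _ ((mem_normalizer_iff''.1 g.2 h).1 hh)
    rwa [mul_smul, mul_smul, inv_smul_eq_iff] at this⟩
  one_smul x := Subtype.ext (one_smul _ _)
  mul_smul a b x := Subtype.ext (mul_smul _ _ _)

theorem fix_sup {X : Type*} [MulAction G X] {H : Subgroup G} {g : G} {x : X} :
    (∀ h ∈ H ⊔ zpowers g, h • x = x) ↔ (∀ h ∈ H, h • x = x) ∧ g • x = x :=
  ⟨fun a => ⟨fun h hh => a h (mem_sup_left hh), a g (mem_sup_right (mem_zpowers g))⟩,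
    fun a => (sup_le a.1 (zpowers_le.2 a.2) : _ ≤ stabilizer G x)⟩

theorem fcj {X : Type*} [MulAction G X] (s : G) {g : G} {x : X} (h : g • x = x) :
    (s * g * s⁻¹) • s • x = s • x := by rw [mul_smul, inv_smul_smul, mul_smul, h]

variable [MulAction G P] [MulAction G L]

/-- Incidence in the fixed structure. -/
def Is (I : P → L → Prop) (H : Subgroup G) (p : Fx H P) (l : Fx H L) : Prop := I p.1 l.1

/-- The subgroup fixes a subplane. -/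
def Pl (I : P → L → Prop) (H : Subgroup G) : Prop :=
  ∃ p₁ p₂ p₃ l₁ l₂ l₃, Cf I p₁ p₂ p₃ l₁ l₂ l₃ ∧ ∀ g ∈ H, Fc g p₁ p₂ p₃ l₁ l₂ l₃

/-- There is a nontrivial elation. -/
def El (G : Type*) [Group G] [MulAction G P] [MulAction G L] (I : P → L → Prop) : Prop :=
  ∃ (τ : G) (c : P) (l : L), I c l ∧ τ ∈ TC G I c l ∧ τ ≠ 1

variable {I : P → L → Prop} {n : ℕ} {H : Subgroup G}

theorem El.of_flip (h : El G (flip I)) : El G I :=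
  let ⟨τ, l, c, a, b, d⟩ := h; ⟨τ, c, l, a, ⟨b.2, b.1⟩, d⟩

theorem Pl.flip (h : Pl I H) : Pl (flip I) H :=
  let ⟨_, _, _, _, _, _, a, b⟩ := h
  ⟨_, _, _, _, _, _, a.flip, fun g hg => let ⟨a, b, c, d, e, f⟩ := b g hg; ⟨d, e, f, a, b, c⟩⟩

theorem Fc.sup {g : G} {p₁ p₂ p₃ : P} {l₁ l₂ l₃ : L} (a : Fc g p₁ p₂ p₃ l₁ l₂ l₃)
    (b : ∀ g ∈ H, Fc g p₁ p₂ p₃ l₁ l₂ l₃) : ∀ x ∈ H ⊔ zpowers g, Fc x p₁ p₂ p₃ l₁ l₂ l₃ :=
  fun x hx => ⟨fix_sup.2 ⟨fun y hy => (b y hy).1, a.1⟩ x hx,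
    fix_sup.2 ⟨fun y hy => (b y hy).2.1, a.2.1⟩ x hx,
    fix_sup.2 ⟨fun y hy => (b y hy).2.2.1, a.2.2.1⟩ x hx,
    fix_sup.2 ⟨fun y hy => (b y hy).2.2.2.1, a.2.2.2.1⟩ x hx,
    fix_sup.2 ⟨fun y hy => (b y hy).2.2.2.2.1, a.2.2.2.2.1⟩ x hx,
    fix_sup.2 ⟨fun y hy => (b y hy).2.2.2.2.2, a.2.2.2.2.2⟩ x hx⟩

structure Sb (I : P → L → Prop) (H : Subgroup G) {Δ : Type*} [Group Δ] [MulAction Δ (Fx H P)]
    [MulAction Δ (Fx H L)] (φ : normalizer (H : Set G) →* Δ) (m : ℕ) : Prop where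
  sur : Function.Surjective φ
  ap : ∀ g (p : Fx H P), (φ g • p).1 = g.1 • p.1
  al : ∀ g (l : Fx H L), (φ g • l).1 = g.1 • l.1
  cg : CG Δ (Is I H) m

theorem CG.exists_sb [Finite P] [Finite L] (h : CG G I n) (pl : Pl I H) :
    ∃ (Δ : Type (max u v)) (_ : Group Δ) (_ : Finite Δ) (_ : MulAction Δ (Fx H P))
      (_ : MulAction Δ (Fx H L)) (φ : normalizer (H : Set G) →* Δ) (m : ℕ), Sb I H φ m := by
  obtain ⟨m, hm⟩ : ∃ m, PP (Is I H) m := by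
    refine exists_PP (fun {p q} e => ?_) (fun {p q} e => ?_)
      (fun a b c d => (h.un a b c d).imp Subtype.ext Subtype.ext) ?_
    · have e' : p.1 ≠ q.1 := fun e' => e (Subtype.ext e')
      obtain ⟨l, a, b⟩ := h.jn e'
      exact ⟨⟨l, fun g hg => h.fixl e' a b (p.2 g hg) (q.2 g hg)⟩, a, b⟩
    · have e' : p.1 ≠ q.1 := fun e' => e (Subtype.ext e')
      obtain ⟨l, a, b⟩ := h.mt e'
      exact ⟨⟨l, fun g hg => h.fixp e' a b (p.2 g hg) (q.2 g hg)⟩, a, b⟩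
    · obtain ⟨p₁, p₂, p₃, l₁, l₂, l₃, a, b⟩ := pl
      exact ⟨⟨p₁, fun g hg => (b g hg).1⟩, ⟨p₂, fun g hg => (b g hg).2.1⟩,
        ⟨p₃, fun g hg => (b g hg).2.2.1⟩, ⟨l₁, fun g hg => (b g hg).2.2.2.1⟩,
        ⟨l₂, fun g hg => (b g hg).2.2.2.2.1⟩, ⟨l₃, fun g hg => (b g hg).2.2.2.2.2⟩, a⟩
  obtain ⟨Δ, _, _, _, _, φ, a, b, c, d⟩ :=
    exists_faithful (N := normalizer (H : Set G)) hm fun g _ _ e => h.inc g.1 e
  exact ⟨Δ, _, ‹_›, _, _, φ, m, a, fun g p => congrArg Subtype.val (b g p),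
    fun g p => congrArg Subtype.val (c g p), d⟩

namespace Sb

variable {Δ : Type*} [Group Δ] [MulAction Δ (Fx H P)] [MulAction Δ (Fx H L)]
  {φ : normalizer (H : Set G) →* Δ} {m : ℕ} (k : Sb I H φ m)
include k

theorem fp {g : normalizer (H : Set G)} {p : Fx H P} : φ g • p = p ↔ g.1 • p.1 = p.1 := by
  rw [← k.ap]; exact Subtype.ext_iff

theorem fl {g : normalizer (H : Set G)} {p : Fx H L} : φ g • p = p ↔ g.1 • p.1 = p.1 := by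
  rw [← k.al]; exact Subtype.ext_iff

theorem one {g : normalizer (H : Set G)} (hg : g.1 ∈ H) : φ g = 1 :=
  k.cg.triv fun p => k.fp.2 (p.2 _ hg)

theorem sq {g : normalizer (H : Set G)} (hg : g.1 ^ 2 ∈ H) : φ g * φ g = 1 := by
  rw [← map_mul, ← pow_two]; exact k.one hg

variable [Finite P] [Finite L]

theorem two_fix {g : normalizer (H : Set G)} (hg : g.1 ^ 2 ∈ H) :
    ∃ C D : Fx H P, C ≠ D ∧ g.1 • C.1 = C.1 ∧ g.1 • D.1 = D.1 := by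
  rcases k.cg.inv_cases (k.sq hg) with ⟨l, a⟩ | ⟨_, p, q, _, _, _, a, b⟩
  · obtain ⟨p₁, -⟩ := k.cg.cfg
    obtain ⟨p, hp, -⟩ := k.cg.third l p₁ p₁
    obtain ⟨q, hq, e, -⟩ := k.cg.third l p p
    exact ⟨q, p, e, k.fp.1 (a q hq), k.fp.1 (a p hp)⟩
  · exact ⟨p, q, fun e => a.2.2.2.2.2.2.2 (e ▸ a.2.2.2.2.1), k.fp.1 b.2.1, k.fp.1 b.2.2.1⟩

omit [Finite L] in
theorem aff (l : Fx H L) : {p : P | ¬I p l.1 ∧ ∀ h ∈ H, h • p = p}.ncard = m ^ 2 := by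
  rw [← k.cg.caff l, ← Set.ncard_image_of_injective _ Subtype.val_injective]
  congr 1
  ext p
  exact ⟨fun a => ⟨⟨p, a.2⟩, a.1, rfl⟩, by rintro ⟨p, a, rfl⟩; exact ⟨a, p.2⟩⟩

theorem baer {g : normalizer (H : Set G)} (hg : g.1 ^ 2 ∈ H) {l : Fx H L} {a b : Fx H P}
    (ab : a ≠ b) (ha : ¬I a.1 l.1) (hb : ¬I b.1 l.1) (ga : g.1 • a.1 = a.1) (gb : g.1 • b.1 = b.1)
    (gl : g.1 • l.1 = l.1) : ∃ i, i ≠ 0 ∧
      {p : P | ¬I p l.1 ∧ ∀ h ∈ H ⊔ zpowers g.1, h • p = p}.ncard = m ^ i := by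
  by_cases a' : Ax (Is I H) (φ g) l
  · have e := k.cg.ax_two a' ha hb ab (k.fp.2 ga) (k.fp.2 gb)
    refine ⟨2, two_ne_zero, .trans ?_ (k.aff l)⟩
    congr 1
    ext p
    exact and_congr_right fun _ => fix_sup.trans (and_iff_left_of_imp fun hp =>
      (k.fp (p := ⟨p, hp⟩)).1 (by rw [e, one_smul]))
  obtain ⟨B, hB⟩ := not_forall.1 a'
  obtain ⟨b1, b2⟩ := Classical.not_imp.1 hB
  refine ⟨1, one_ne_zero, ?_⟩
  rw [pow_one, ← k.cg.cnt (k.sq hg) (k.fl.2 gl) b1 b2,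
    ← Set.ncard_image_of_injective _ Subtype.val_injective]
  congr 1
  ext p
  exact ⟨fun a => ⟨⟨p, (fix_sup.1 a.2).1⟩, ⟨a.1, k.fp.2 (fix_sup.1 a.2).2⟩, rfl⟩, by
    rintro ⟨p, a, rfl⟩; exact ⟨a.1, fix_sup.2 ⟨p.2, k.fp.1 a.2⟩⟩⟩

theorem lift_el [Finite G] [Finite Δ] {p j : ℕ} (hp : p.Prime) (hm : m ∣ p ^ j)
    (e : El Δ (Is I H)) : ∃ u ∈ normalizer (H : Set G), u ∉ H ∧ IsPGroup p (zpowers u) ∧
      ∃ (A : Fx H P) (l : Fx H L), ¬I A.1 l.1 ∧ u • A.1 = A.1 ∧ u • l.1 = l.1 := by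
  obtain ⟨τ, c, l, h1, h2, h3⟩ := e
  obtain ⟨y, rfl⟩ := k.sur τ
  obtain ⟨e, e1, e2⟩ := exists_pow hp y.1
  obtain ⟨A, a1, a2, -⟩ := k.cg.third l c c
  obtain ⟨i, i1, i2, -⟩ := k.cg.thirdL c l l
  obtain ⟨d, hd⟩ := hm
  refine ⟨y.1 ^ e, pow_mem y.2 _, fun hu => pow_ne (k := j) hp ?_ h3 e1 ?_, e2, A, i,
    fun e => a2 (k.cg.eqP i2 e i1 a1 h1), (stabilizer G A.1).pow_mem (k.fp.1 (h2.2 A a1)) _,
    (stabilizer G i.1).pow_mem (k.fl.1 (h2.1 i i1)) _⟩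
  · rw [hd, pow_mul, k.cg.el_pow h1 h2, one_pow]
  · rw [← map_pow]; exact k.one hu

end Sb

namespace CG

variable [Finite G] [Finite P] [Finite L] (h : CG G I n)
include h

theorem order_primes {Φ : Subgroup G} (hΦ : IsPGroup 2 Φ) {p₁ p₂ p₃ : P} {l₁ l₂ l₃ : L}
    (c : Cf I p₁ p₂ p₃ l₁ l₂ l₃) (f : ∀ g ∈ Φ, Fc g p₁ p₂ p₃ l₁ l₂ l₃) {q : ℕ} (hq : q.Prime) :
    q ∣ {p : P | ¬I p l₁ ∧ ∀ h ∈ Φ, h • p = p}.ncard ↔ q ∣ n := by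
  haveI := Fact.mk Nat.prime_two
  suffices ∀ Ψ ≤ Φ, (q ∣ {p : P | ¬I p l₁ ∧ ∀ h ∈ Ψ, h • p = p}.ncard ↔ q ∣ n) →
      (q ∣ {p : P | ¬I p l₁ ∧ ∀ h ∈ Φ, h • p = p}.ncard ↔ q ∣ n) by
    refine this ⊥ bot_le ?_
    have e : {p : P | ¬I p l₁ ∧ ∀ h ∈ (⊥ : Subgroup G), h • p = p} = {p | ¬I p l₁} := by
      ext p; simp
    rw [e, h.caff, hq.prime.dvd_pow_iff_dvd two_ne_zero]
  intro Ψ
  induction Ψ using WellFoundedGT.induction with | _ Ψ ih =>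
  intro le e
  obtain rfl | lt := le.eq_or_lt
  · exact e
  obtain ⟨x, x1, x2, x3, x4⟩ := grow hΦ lt
  refine ih (Ψ ⊔ zpowers x) (lt_of_le_of_ne le_sup_left fun e =>
    x2 (e ▸ mem_sup_right (mem_zpowers x))) (sup_le le (zpowers_le.2 x1)) ?_
  obtain ⟨Δ, _, _, _, _, φ, m, k⟩ := h.exists_sb (H := Ψ) ⟨_, _, _, _, _, _, c, fun g hg => f g (le hg)⟩
  obtain ⟨i, i0, e1⟩ := k.baer (g := ⟨x, x3⟩) x4 (l := ⟨l₁, fun g hg => (f g (le hg)).2.2.2.1⟩)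
    (a := ⟨p₂, fun g hg => (f g (le hg)).2.1⟩) (b := ⟨p₃, fun g hg => (f g (le hg)).2.2.1⟩)
    (fun e => c.2.2.2.2.2.2.2 ((show p₂ = p₃ from congrArg Subtype.val e) ▸ c.2.2.2.2.1)) c.2.2.1
    c.2.2.2.2.2.1 (f x x1).2.1 (f x x1).2.2.1 (f x x1).2.2.2.1
  rw [k.aff ⟨l₁, fun g hg => (f g (le hg)).2.2.2.1⟩, hq.prime.dvd_pow_iff_dvd two_ne_zero] at e
  rw [e1, hq.prime.dvd_pow_iff_dvd i0, e]

theorem grow2 (h2 : Two G P) {Φ : Subgroup G} (hΦ : IsPGroup 2 Φ) (pl : Pl I Φ) {a b : P}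
    (ab : a ≠ b) (fa : ∀ g ∈ Φ, g • a = a) (fb : ∀ g ∈ Φ, g • b = b) :
    ∃ x ∉ Φ, x ∈ normalizer (Φ : Set G) ∧ x ^ 2 ∈ Φ ∧ IsPGroup 2 (zpowers x) ∧ x • a = a ∧
      x • b = b := by
  haveI := Fact.mk Nat.prime_two
  let K := stabilizer G a ⊓ stabilizer G b
  have ΦK : Φ ≤ K := fun g hg => ⟨fa g hg, fb g hg⟩
  suffices ∃ R ≤ K, IsPGroup 2 R ∧ Φ < R by
    obtain ⟨R, r1, r2, r3⟩ := this
    obtain ⟨x, x1, x2, x3, x4⟩ := grow r2 r3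
    exact ⟨x, x2, x3, x4, r2.to_le (zpowers_le.2 x1), (r1 x1).1, (r1 x1).2⟩
  let M : Subgroup G :=
    { carrier := {g | g • a = a ∧ g • b = b ∨ g • a = b ∧ g • b = a}
      one_mem' := .inl ⟨one_smul _ _, one_smul _ _⟩
      mul_mem' := by
        rintro x y (⟨x1, x2⟩ | ⟨x1, x2⟩) (⟨y1, y2⟩ | ⟨y1, y2⟩) <;>
          simp [mul_smul, x1, x2, y1, y2]
      inv_mem' := by
        rintro x (⟨x1, x2⟩ | ⟨x1, x2⟩)
        · exact .inl ⟨finv x1, finv x2⟩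
        · exact .inr ⟨inv_smul_eq_iff.2 x2.symm, inv_smul_eq_iff.2 x1.symm⟩ }
  obtain ⟨g, g1, g2⟩ := h2 ab ab.symm
  obtain ⟨e, e1, e2⟩ := exists_pow Nat.prime_two g
  obtain ⟨t, rfl⟩ : Odd e := Nat.not_even_iff_odd.1 fun e => e1 e.two_dvd
  have sw : g ^ (2 * t + 1) • a = b ∧ g ^ (2 * t + 1) • b = a := by
    have : (g ^ 2) ^ t ∈ K := pow_mem (⟨by rw [pow_two]; exact (mul_smul _ _ _).trans (by
      rw [g1, g2]), by rw [pow_two]; exact (mul_smul _ _ _).trans (by rw [g2, g1])⟩ : g ^ 2 ∈ K) t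
    rw [pow_succ, pow_mul, mul_smul, mul_smul, g1, g2]
    exact ⟨this.2, this.1⟩
  obtain ⟨R, r1, r2, r3, m, hm, r4⟩ := ext_p (M := M) hΦ e2 (fun g hg => .inl (ΦK hg))
    (zpowers_le.2 (.inr sw))
  obtain ⟨x, x1, x2⟩ : ∃ x ∈ R, x • a ≠ a := ⟨_, r4 _ (mem_zpowers _), fun e => by
    rw [mul_smul, mul_smul, ← eq_inv_smul_iff] at e
    rcases M.inv_mem hm with ⟨m1, -⟩ | ⟨m1, -⟩ <;> rw [m1] at e
    exacts [ab (e.symm.trans sw.1), ab (sw.2.symm.trans e)]⟩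
  obtain ⟨xa, xb⟩ := (r1 x1).resolve_left fun e => x2 e.1
  rcases (le_inf r3 ΦK).eq_or_lt with e | lt
  swap; · exact ⟨_, inf_le_right, r2.to_inf_left, lt⟩
  have xn : x ∈ normalizer (Φ : Set G) := mem_normalizer_fintype fun c hc => by
    rw [SetLike.mem_coe, e]
    refine ⟨R.mul_mem (R.mul_mem x1 (r3 hc)) (R.inv_mem x1), ?_, ?_⟩
    · change _ • _ = _
      rw [← xb, mul_smul, inv_smul_smul, mul_smul, fb c hc]
    · change _ • _ = _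
      rw [← xa, mul_smul, inv_smul_smul, mul_smul, fa c hc]
  have xs : x ^ 2 ∈ Φ := by
    rw [e]
    refine ⟨R.pow_mem x1 2, ?_, ?_⟩ <;> change _ • _ = _ <;> rw [pow_two, mul_smul] <;>
      simp only [xa, xb]
  obtain ⟨Δ, _, _, _, _, φ, m, k⟩ := h.exists_sb pl
  obtain ⟨C, D, CD, c1, d1⟩ := k.two_fix (g := ⟨x, xn⟩) xs
  obtain ⟨s, s1, s2⟩ := h2 (fun e => CD (Subtype.ext e)) ab
  obtain ⟨R', q1, q2, q3, w, -, q4⟩ := ext_p (M := K) hΦ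
    ((r2.to_le (sup_le r3 (zpowers_le.2 x1))).map (MulAut.conj s).toMonoidHom) ΦK (by
      rintro _ ⟨y, hy, rfl⟩
      exact ⟨s1 ▸ fcj s (fix_sup.2 ⟨C.2, c1⟩ y hy), s2 ▸ fcj s (fix_sup.2 ⟨D.2, d1⟩ y hy)⟩)
  refine ⟨R', q1, q2, lt_of_le_of_ne q3 fun e' => x2 (fa x ?_)⟩
  have le : Nat.card (Φ ⊔ zpowers x : Subgroup G) ≤ Nat.card Φ :=
    Nat.card_le_card_of_injective (fun y => ⟨w * (s * y.1 * s⁻¹) * w⁻¹,
      e'.ge (q4 _ ⟨y.1, y.2, rfl⟩)⟩) fun y z e => Subtype.ext (by simpa using e)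
  exact (eq_of_le_of_card_ge le_sup_left le).ge (mem_sup_right (mem_zpowers x))

end CG

end H20.OW
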