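import Cfsg.Agent.H20.OW4

/-! A doubly transitive collineation group of a finite projective plane contains an elation. -/

set_option autoImplicit false

namespace H20.OW

open MulAction Subgroup

universe u v

variable {G : Type*} {P : Type u} {L : Type v} [Group G]

theorem exists_cen [Finite G] {p : ℕ} [Fact p.Prime] {S : Subgroup G} (hS : IsPGroup p S)
    (h0 : S ≠ ⊥) : ∃ z ∈ S, z ≠ 1 ∧ z ^ p = 1 ∧ ∀ s ∈ S, s * z = z * s := by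
  haveI := (nontrivial_iff_ne_bot S).2 h0
  haveI := hS.center_nontrivial
  obtain ⟨z, hz⟩ := exists_ne (1 : center S)
  obtain ⟨x, x1, x2, -, x4⟩ := grow (Φ := ⊥) (hS.to_inf_left (K := centralizer (S : Set G)))
    (bot_lt_iff_ne_bot.2 fun e => hz (Subtype.ext (Subtype.ext (mem_bot.1 (e.le
      ⟨z.1.2, fun s hs => congrArg Subtype.val (mem_center_iff.1 z.2 ⟨s, hs⟩)⟩)))))
  exact ⟨x, x1.1, x2, x4, x1.2⟩

variable [MulAction G P] [MulAction G L] {I : P → L → Prop} {n : ℕ}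

theorem cfix {X : Type*} [MulAction G X] {s z : G} {x : X} (c : s * z = z * s) (e : z • x = x) :
    z • s • x = s • x := by rw [← mul_smul, ← c, mul_smul, e]

namespace CG

variable [Finite G] [Finite P] [Finite L] (h : CG G I n)
include h

omit [Finite G] [Finite P] [Finite L] in
theorem cen_el {S : Subgroup G} {l : L} {X Y : P} (hX : I X l) (Sl : ∀ s ∈ S, s • l = l)
    (t1 : ∀ {A B}, ¬I A l → ¬I B l → ∃ s ∈ S, s • A = B)
    (t2 : ∀ {j k}, ¬I X j → ¬I X k → ∃ s ∈ S, s • j = k) {α : G} (a1 : α ≠ 1)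
    (cen : ∀ s ∈ S, s * α = α * s) (aX : α • X = X) (hY : I Y l) (YX : Y ≠ X) (aY : α • Y = Y) :
    El G I := by
  have ax : Ax I α l := fun Z hZ => by
    obtain rfl | ZX := eq_or_ne Z X
    · exact aX
    obtain ⟨j, j1, jl, -⟩ := h.thirdL Y l l
    obtain ⟨k, k1, kl, -⟩ := h.thirdL Z l l
    obtain ⟨s, s1, rfl⟩ := t2 (fun e => YX (h.eqP jl j1 e hY hX)) fun e => ZX (h.eqP kl k1 e hZ hX)
    rw [← h.eqP kl (h.inc s j1) k1 ((h.incl (Sl s s1)).2 hY) hZ]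
    exact cfix (cen s s1) aY
  obtain ⟨c, c1, c2⟩ := h.mem_T ax fun A hA e => a1 (h.triv fun B => by
    by_cases hB : I B l
    · exact ax B hB
    · obtain ⟨s, s1, rfl⟩ := t1 hA hB
      exact cfix (cen s s1) e)
  exact ⟨α, c, l, c1, c2, a1⟩

variable (h2 : Two G P)
include h2

theorem ob_dvd {p k : ℕ} [Fact p.Prime] (S : Sylow p G) {l : L} (Sl : ∀ s ∈ S, s • l = l)
    (hk : p ^ k ∣ n ^ 2) {A : P} (hA : ¬I A l) : p ^ k ∣ (Ob (S : Subgroup G) A).ncard := by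
  refine syl_dvd S (K := stabilizer G l) Sl A ?_
  have : Ob (stabilizer G l) A = {B | ¬I B l} := Set.ext fun B =>
    ⟨by rintro ⟨g, h1, rfl⟩ e; exact hA ((h.incl h1).1 e), fun hB =>
      let ⟨g, h1, h2⟩ := h.aflag h2 hA hB; ⟨g, h2, h1⟩⟩
  rwa [this, h.caff]

theorem el_even (hn : 2 ∣ n) : El G I := by
  haveI := Fact.mk Nat.prime_two
  obtain ⟨S⟩ : Nonempty (Sylow 2 G) := inferInstance
  obtain ⟨l, -, Sl⟩ := fix_exists S.isPGroup' (Set.univ : Set L) (fun _ _ _ _ => trivial) (by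
    rw [Set.ncard_univ, h.cL, pow_two]
    obtain ⟨a, rfl⟩ := hn
    have : 2 * a * (2 * a) = 2 * (a * (2 * a)) := by ring
    omega)
  obtain ⟨k, n', e1, e2⟩ := Nat.exists_eq_pow_mul_and_not_dvd (show n ≠ 0 by have := h.two; omega)
    2 (by decide)
  have k0 : k ≠ 0 := by rintro rfl; exact e1 (by simpa [e2] using hn)
  have dv : ∀ Y : Set P, (∀ A ∈ Y, ¬I A l) → (∀ s ∈ S, ∀ A ∈ Y, s • A ∈ Y) →
      2 ^ (k + 1) ∣ Y.ncard := fun Y h1 h3 => dvd_of_orbits _ Y h3 fun A hA =>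
    h.ob_dvd h2 S Sl ((pow_dvd_pow 2 (show k + 1 ≤ k * 2 by omega)).trans (by
      rw [pow_mul]; exact pow_dvd_pow_of_dvd (Dvd.intro _ e2.symm) 2)) (h1 A hA)
  have one : ∀ A, ¬I A l → ¬∀ s ∈ S, s • A = A := fun A hA e => by
    have := dv {A} (by rintro _ rfl; exact hA) (by rintro s hs _ rfl; exact e s hs)
    rw [Set.ncard_singleton, pow_succ] at this
    exact absurd (Nat.dvd_one.1 (Dvd.dvd.trans (Dvd.intro_left _ rfl) this)) (by decide)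
  obtain ⟨A, hA⟩ := h.off l
  obtain ⟨z, z1, z2, z3, z4⟩ := exists_cen S.isPGroup' fun e => one A hA fun s hs => by
    rw [mem_bot.1 (e.le hs), one_smul]
  rw [pow_two] at z3
  have ax : Ax I z l := fun B hB => by
    by_contra e
    have := dv {p | ¬I p l ∧ z • p = p} (fun _ e => e.1) fun s hs A hA =>
      ⟨fun e => hA.1 ((h.incl (Sl s hs)).1 e), cfix (z4 s hs) hA.2⟩
    rw [h.cnt z3 (Sl z z1) hB e, e2, pow_succ] at this
    exact e1 (Nat.dvd_of_mul_dvd_mul_left (by positivity) this)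
  obtain ⟨c, c1, c2⟩ := h.mem_T ax fun A hA e => one A hA fun s hs => by
    by_contra e'
    exact z2 (h.ax_two ax (fun e => hA ((h.incl (Sl s hs)).1 e)) hA e' (cfix (z4 s hs) e) e)
  exact ⟨z, c, l, c1, c2, z2⟩

theorem odd_step (hn : ¬2 ∣ n) : ∃ p s : ℕ, p.Prime ∧ n = p ^ s ∧ ∃ u : G, u ≠ 1 ∧
    IsPGroup p (zpowers u) ∧ ∃ (A : P) (l : L), ¬I A l ∧ u • A = A ∧ u • l = l := by
  haveI := Fact.mk Nat.prime_two
  obtain ⟨Φ, ⟨hΦ, pl⟩, mx⟩ := (Set.toFinite {Φ : Subgroup G | IsPGroup 2 Φ ∧ Pl I Φ}).exists_maximal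
    ⟨⊥, IsPGroup.of_bot, let ⟨_, _, _, _, _, _, c⟩ := h.cfg
      ⟨_, _, _, _, _, _, c, fun g hg => by simp [mem_bot.1 hg, Fc]⟩⟩
  obtain ⟨Δ, _, _, _, _, φ, m, k⟩ := h.exists_sb pl
  have mp : ∀ y : normalizer (Φ : Set G), IsPGroup 2 (zpowers y.1) → ∀ p₁ p₂ p₃ l₁ l₂ l₃,
      Cf (Is I Φ) p₁ p₂ p₃ l₁ l₂ l₃ → Fc (φ y) p₁ p₂ p₃ l₁ l₂ l₃ → y.1 ∈ Φ :=
    fun y hy p₁ p₂ p₃ l₁ l₂ l₃ c f => mx (y := Φ ⊔ zpowers y.1)
      ⟨hΦ.to_sup_of_normal_left' hy (zpowers_le.2 y.2), p₁.1, p₂.1, p₃.1, l₁.1, l₂.1, l₃.1, c,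
        Fc.sup ⟨k.fp.1 f.1, k.fp.1 f.2.1, k.fp.1 f.2.2.1, k.fl.1 f.2.2.2.1, k.fl.1 f.2.2.2.2.1,
          k.fl.1 f.2.2.2.2.2⟩ fun g hg => ⟨p₁.2 g hg, p₂.2 g hg, p₃.2 g hg, l₁.2 g hg, l₂.2 g hg,
            l₃.2 g hg⟩⟩ le_sup_left (mem_sup_right (mem_zpowers _))
  have ne1 : ∀ y : normalizer (Φ : Set G), IsPGroup 2 (zpowers y.1) → y.1 ∉ Φ → φ y ≠ 1 :=
    fun y hy hn e => let ⟨_, _, _, _, _, _, c⟩ := k.cg.cfg
      hn (mp y hy _ _ _ _ _ _ c (by simp [e, Fc]))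
  have pr : ∀ {q : ℕ}, q.Prime → (q ∣ m ↔ q ∣ n) := fun {q} hq => by
    obtain ⟨p₁, p₂, p₃, l₁, l₂, l₃, c, f⟩ := pl
    rw [← h.order_primes hΦ c f hq, k.aff ⟨l₁, fun g hg => (f g hg).2.2.2.1⟩,
      hq.prime.dvd_pow_iff_dvd two_ne_zero]
  have hh : HH Δ (Is I Φ) m := by
    refine ⟨k.cg, Nat.not_even_iff_odd.1 fun e => hn ((pr Nat.prime_two).1 e.two_dvd),
      fun σ s s1 => (k.cg.inv_cases s).resolve_right ?_, fun {a b} ab => ?_, fun {a b} ab => ?_⟩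
    · rintro ⟨p₁, p₂, p₃, l₁, l₂, l₃, c, f⟩
      obtain ⟨y, rfl⟩ := k.sur σ
      obtain ⟨e, e1, e2⟩ := exists_pow Nat.prime_two y.1
      refine pow_ne (k := 1) Nat.prime_two (by rwa [pow_one, pow_two]) s1 e1 ?_
      rw [← map_pow]
      refine k.one (mp (y ^ e) e2 _ _ _ _ _ _ c ?_)
      rw [map_pow]
      exact ⟨(stabilizer Δ _).pow_mem f.1 e, (stabilizer Δ _).pow_mem f.2.1 e,
        (stabilizer Δ _).pow_mem f.2.2.1 e, (stabilizer Δ _).pow_mem f.2.2.2.1 e,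
        (stabilizer Δ _).pow_mem f.2.2.2.2.1 e, (stabilizer Δ _).pow_mem f.2.2.2.2.2 e⟩
    · obtain ⟨x, x1, x2, x3, x4, x5, x6⟩ := h.grow2 h2 hΦ pl (fun e => ab (Subtype.ext e)) a.2 b.2
      exact ⟨φ ⟨x, x2⟩, k.sq x3, ne1 _ x4 x1, k.fp.2 x5, k.fp.2 x6⟩
    · obtain ⟨x, x1, x2, x3, x4, x5, x6⟩ := h.flip.grow2 (h.twoL h2) hΦ pl.flip
        (fun e => ab (Subtype.ext e)) a.2 b.2
      exact ⟨φ ⟨x, x2⟩, k.sq x3, ne1 _ x4 x1, k.fl.2 x5, k.fl.2 x6⟩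
  obtain ⟨p, r, hp, e⟩ := hh.prime_pow
  obtain ⟨u, -, u1, u2, A, l, u3⟩ := k.lift_el hp e.dvd hh.exists_el
  exact ⟨p, _, hp, Nat.eq_prime_pow_of_unique_prime_dvd (by have := h.two; omega) fun hd e' =>
    (Nat.prime_dvd_prime_iff_eq hd hp).1 (hd.dvd_of_dvd_pow (e ▸ (pr hd).2 e')), u,
    fun e => u1 (e ▸ one_mem _), u2, A.1, l.1, u3⟩

section
variable {p s : ℕ} [Fact p.Prime] (hn : n = p ^ s)
include hn

theorem syl_ob (S : Sylow p G) {l : L} (Sl : ∀ s ∈ S, s • l = l) {A : P} (hA : ¬I A l) :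
    Ob (S : Subgroup G) A = {B | ¬I B l} := by
  refine Set.eq_of_subset_of_ncard_le (by
    rintro _ ⟨g, h1, rfl⟩ e; exact hA ((h.incl (Sl g h1)).1 e)) ?_
  have := h.ob_dvd h2 S Sl (k := s * 2) (by rw [hn, pow_mul]) hA
  rw [h.caff, hn, ← pow_mul]
  exact Nat.le_of_dvd ((Set.ncard_pos (Set.toFinite _)).2 ⟨A, 1, one_mem _, one_smul _ _⟩) this

theorem syl_card (S S' : Sylow p G) {l l' : L} (Sl : ∀ s ∈ S, s • l = l)
    (Sl' : ∀ s ∈ S', s • l' = l') {A A' : P} (hA : ¬I A l) (hA' : ¬I A' l') :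
    Nat.card ((S : Subgroup G) ⊓ stabilizer G A : Subgroup G) =
      Nat.card ((S' : Subgroup G) ⊓ stabilizer G A' : Subgroup G) := by
  have e1 := ob_card (S : Subgroup G) A
  have e2 := ob_card (S' : Subgroup G) A'
  rw [h.syl_ob h2 hn S Sl hA, h.caff, S.card_eq_multiplicity] at e1
  rw [h.syl_ob h2 hn S' Sl' hA', h.caff, S'.card_eq_multiplicity] at e2
  exact Nat.eq_of_mul_eq_mul_left (by have := h.two; positivity) (e1.trans e2.symm)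

theorem syl_flag (S : Sylow p G) : ∃ X l, I X l ∧ ∀ s ∈ S, s • X = X ∧ s • l = l := by
  have hp : p ∣ n := hn ▸ dvd_pow_self p (by rintro rfl; have := h.two; simp at hn; omega)
  have nd : ∀ {a}, p ∣ a → ¬p ∣ a + 1 := fun a b =>
    (Fact.out : p.Prime).one_lt.ne' (Nat.dvd_one.1 ((Nat.dvd_add_right a).1 b))
  obtain ⟨l, -, Sl⟩ := fix_exists S.isPGroup' (Set.univ : Set L) (fun _ _ _ _ => trivial) (by
    rw [Set.ncard_univ, h.cL]; exact nd (dvd_add (dvd_pow hp two_ne_zero) hp))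
  obtain ⟨X, hX, SX⟩ := fix_exists S.isPGroup' {X | I X l}
    (fun s hs X hX => (h.incl (Sl s hs)).2 hX) (by rw [h.cl]; exact nd hp)
  exact ⟨X, l, hX, fun s hs => ⟨SX s hs, Sl s hs⟩⟩

theorem syl_ext {V : Subgroup G} (hV : IsPGroup p V) {X : P} {l : L} (hX : I X l)
    (f : ∀ s ∈ V, s • X = X ∧ s • l = l) :
    ∃ S : Sylow p G, V ≤ S ∧ ∀ s ∈ S, s • X = X ∧ s • l = l := by
  obtain ⟨S⟩ : Nonempty (Sylow p G) := inferInstance
  obtain ⟨Y, k, hY, f'⟩ := h.syl_flag h2 hn S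
  obtain ⟨g, rfl, rfl⟩ := h.flag h2 hY hX
  exact ext_syl (M := stabilizer G (g • Y) ⊓ stabilizer G (g • k)) hV (g • S) f (by
    rintro _ ⟨s, hs, rfl⟩
    exact ⟨fcj g (f' s hs).1, fcj g (f' s hs).2⟩)

theorem syl_ext' {V : Subgroup G} (hV : IsPGroup p V) {l : L} (f : ∀ s ∈ V, s • l = l) :
    ∃ S : Sylow p G, V ≤ S ∧ ∀ s ∈ S, s • l = l := by
  have hp : p ∣ n := hn ▸ dvd_pow_self p (by rintro rfl; have := h.two; simp at hn; omega)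
  obtain ⟨X, hX, SX⟩ := fix_exists hV {X | I X l} (fun s hs X hX => (h.incl (f s hs)).2 hX) (by
    rw [h.cl]
    exact fun b => (Fact.out : p.Prime).one_lt.ne' (Nat.dvd_one.1 ((Nat.dvd_add_right hp).1 b)))
  obtain ⟨S, h1, h3⟩ := h.syl_ext h2 hn hV hX fun s hs => ⟨SX s hs, f s hs⟩
  exact ⟨S, h1, fun s hs => (h3 s hs).2⟩

end

end CG

theorem exists_el (n : ℕ) : ∀ {P : Type u} {L : Type v} {G : Type (max u v)} [Group G]
    [MulAction G P] [MulAction G L] [Finite G] [Finite P] [Finite L] {I : P → L → Prop},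
    CG G I n → Two G P → El G I := by
  induction n using Nat.strong_induction_on with | _ n ih =>
  intro P L G _ _ _ _ _ _ I h h2
  by_cases hn : 2 ∣ n
  · exact h.el_even h2 hn
  obtain ⟨p, s, hp, hn, u, u1, u2, A₀, l₀, u3, u4, u5⟩ := h.odd_step h2 hn
  haveI := Fact.mk hp
  obtain ⟨S⟩ : Nonempty (Sylow p G) := inferInstance
  obtain ⟨X, l, hX, f⟩ := h.syl_flag h2 hn S
  have t1 : ∀ {A B}, ¬I A l → ¬I B l → ∃ s ∈ (S : Subgroup G), s • A = B := fun a b =>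
    (h.syl_ob h2 hn S (fun s hs => (f s hs).2) a).ge b
  have t2 : ∀ {j k}, ¬I X j → ¬I X k → ∃ s ∈ (S : Subgroup G), s • j = k := fun a b =>
    (h.flip.syl_ob (h.twoL h2) hn S (fun s hs => (f s hs).1) a).ge b
  obtain ⟨A, hA⟩ := h.off l
  let U : Subgroup G := (S : Subgroup G) ⊓ stabilizer G A
  have eqU : ∀ {V : Subgroup G}, IsPGroup p V → ∀ {B k}, ¬I B k → (∀ s ∈ V, s • B = B ∧ s • k = k) →
      Nat.card V ≤ Nat.card U := fun hV B k hB f' => by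
    obtain ⟨S', h1, h3⟩ := h.syl_ext' h2 hn hV fun s hs => (f' s hs).2
    rw [h.syl_card h2 hn S S' (fun s hs => (f s hs).2) h3 hA hB]
    exact card_le_of_le (le_inf h1 fun s hs => (f' s hs).1)
  have U0 : U ≠ ⊥ := (one_lt_card_iff_ne_bot _).1 (lt_of_lt_of_le
    ((one_lt_card_iff_ne_bot _).2 (zpowers_ne_bot.2 u1)) (eqU u2 u3 fun s hs =>
      (zpowers_le (H := stabilizer G A₀ ⊓ stabilizer G l₀)).2 ⟨u4, u5⟩ hs))
  obtain ⟨α, a0, a1, -, cen⟩ := exists_cen S.isPGroup' fun e => U0 (eq_bot_iff.2 (e ▸ inf_le_left))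
  by_contra H
  have n1 : ∀ Y, I Y l → Y ≠ X → α • Y ≠ Y := fun Y a b c =>
    H (h.cen_el hX (fun s hs => (f s hs).2) t1 t2 a1 cen (f α a0).1 a b c)
  have n2 : ∀ j, I X j → j ≠ l → α • j ≠ j := fun j a b c =>
    H (h.flip.cen_el hX (fun s hs => (f s hs).1) t2 t1 a1 cen (f α a0).2 a b c).of_flip
  have pl : Pl I U := by
    obtain ⟨i, i1, i2⟩ := h.jn (show A ≠ X from fun e => hA (e ▸ hX))
    have il : i ≠ l := fun e => hA (e ▸ i1)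
    have hB : ¬I (α • A) l := fun e => hA ((h.incl (f α a0).2).1 e)
    have Bi : ¬I (α • A) i := fun e => n2 i i2 il (h.eqL (show α • A ≠ X from fun e => hB (e ▸ hX))
      (h.inc α i1) ((h.incp (f α a0).1).2 i2) e i2)
    have AB : A ≠ α • A := fun e => Bi (e ▸ i1)
    obtain ⟨j, j1, j2⟩ := h.jn AB
    have jl : j ≠ l := fun e => hA (e ▸ j1)
    obtain ⟨Y, y1, y2⟩ := h.mt jl
    have YX : Y ≠ X := fun e =>
      Bi (h.eqL (show A ≠ X from fun e => hA (e ▸ hX)) j1 (e ▸ y1) i1 i2 ▸ j2)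
    have y3 : I (α • Y) l := (h.incl (f α a0).2).2 y2
    refine ⟨α • Y, A, α • A, l, j, i, ⟨fun e => n1 Y y2 YX (h.eqP jl e y1 y3 y2), fun e =>
      YX (smul_left_cancel α ((h.eqP il e i2 y3 hX).trans (f α a0).1.symm)), hA, j1, i1, hB, j2, Bi⟩,
      fun g hg => ?_⟩
    have gB : g • α • A = α • A := cfix (cen g hg.1).symm hg.2
    have gj := h.fixl AB j1 j2 hg.2 gB
    exact ⟨cfix (cen g hg.1).symm (h.fixp jl y1 y2 gj (f g hg.1).2), hg.2, gB, (f g hg.1).2, gj,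
      h.fixl (fun e : A = X => hA (e ▸ hX)) i1 i2 hg.2 (f g hg.1).1⟩
  obtain ⟨Δ, _, _, _, _, φ, m, k⟩ := h.exists_sb pl
  have hU : IsPGroup p U := S.isPGroup'.to_inf_left
  have tr : ∀ {Y : Fx U P} {j : Fx U L}, I Y.1 j.1 → ∃ K : Subgroup G, IsPGroup p K ∧
      K ≤ normalizer (U : Set G) ∧ (∀ s ∈ K, s • Y.1 = Y.1) ∧ ∀ B : Fx U P, ¬I B.1 j.1 →
        Ob K B.1 = {C | ¬I C j.1 ∧ ∀ g ∈ U, g • C = C} := fun {Y j} hY => by
    obtain ⟨S', h1, h3⟩ := h.syl_ext h2 hn hU hY fun s hs => ⟨Y.2 s hs, j.2 s hs⟩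
    have e : ∀ {C : P}, ¬I C j.1 → (∀ g ∈ U, g • C = C) → U = (S' : Subgroup G) ⊓ stabilizer G C :=
      fun a b =>
      eq_of_le_of_card_ge (le_inf h1 b) (eqU S'.isPGroup'.to_inf_left a fun s hs =>
        ⟨hs.2, (h3 s hs.1).2⟩)
    refine ⟨S' ⊓ normalizer (U : Set G), S'.isPGroup'.to_inf_left, inf_le_right,
      fun s hs => (h3 s hs.1).1, fun B hB => Set.ext fun C => ⟨?_, fun hC => ?_⟩⟩
    · rintro ⟨g, hg, rfl⟩
      exact ⟨fun e => hB ((h.incl (h3 g hg.1).2).1 e),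
        ((⟨g, hg.2⟩ : normalizer (U : Set G)) • B).2⟩
    · obtain ⟨g, hg, rfl⟩ := (h.syl_ob h2 hn S' (fun s hs => (h3 s hs).2) hB).ge hC.1
      refine ⟨g, ⟨hg, mem_normalizer_fintype fun a ha => (e hC.1 hC.2).ge ⟨?_, fcj g (B.2 a ha)⟩⟩,
        rfl⟩
      exact S'.1.mul_mem (S'.1.mul_mem hg (h1 ha)) (S'.1.inv_mem hg)
  have st : ∀ {Y a b : Fx U P}, a ≠ Y → b ≠ Y → ∃ g : Δ, g • Y = Y ∧ g • a = b :=
    fun {Y a b} ha hb => by
      obtain ⟨i, i1, i2⟩ := k.cg.jn ha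
      obtain ⟨j, j1, j2⟩ := k.cg.jn hb
      obtain ⟨w, w1, wi, wj⟩ := k.cg.thirdL Y i j
      obtain ⟨K, -, k1, k2, k3⟩ := tr w1
      obtain ⟨g, hg, e⟩ := (k3 a fun e => wi (k.cg.eqL ha e w1 i1 i2)).ge
        ⟨fun e => wj (k.cg.eqL hb e w1 j1 j2), b.2⟩
      exact ⟨φ ⟨g, k1 hg⟩, k.fp.2 (k2 g hg), Subtype.ext ((k.ap _ _).trans e)⟩
  have two : Two Δ (Fx U P) := by
    intro a b c d ab cd
    obtain ⟨g, rfl⟩ : ∃ g : Δ, g • a = c := by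
      obtain rfl | ac := eq_or_ne a c
      · exact ⟨1, one_smul _ _⟩
      obtain ⟨j, -⟩ := k.cg.jn ac
      obtain ⟨Y, -, y1, y2⟩ := k.cg.third j a c
      exact (st y1.symm y2.symm).imp fun _ e => e.2
    obtain ⟨g', e1, e2⟩ := st (Y := g • a) (a := g • b) (by simpa using ab.symm) cd.symm
    exact ⟨g' * g, by rw [mul_smul, e1], by rw [mul_smul, e2]⟩
  have lt : m < n := by
    obtain ⟨⟨g, hg⟩, g1⟩ := ne_bot_iff_exists_ne_one.1 U0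
    obtain ⟨Z, hZ⟩ : ∃ Z : P, g • Z ≠ Z := by
      by_contra! e
      exact g1 (Subtype.ext (h.triv e))
    have := Finite.card_subtype_lt (p := fun x : P => ∀ h ∈ U, h • x = x) fun e => hZ (e g hg)
    rw [k.cg.cP, h.cP] at this
    nlinarith
  obtain ⟨j, hj⟩ : ∃ j, m ∣ p ^ j := by
    obtain ⟨K, k0, -, -, k3⟩ := tr (Y := ⟨X, fun g hg => (f g hg.1).1⟩)
      (j := ⟨l, fun g hg => (f g hg.1).2⟩) hX
    obtain ⟨j, hj⟩ := ob_pow k0 A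
    rw [k3 ⟨A, fun g hg => hg.2⟩ hA, k.aff] at hj
    exact ⟨j, hj ▸ dvd_pow_self m two_ne_zero⟩
  obtain ⟨x, x1, x2, x3, B, i, b1, b2, b3⟩ := k.lift_el hp hj (ih m lt k.cg two)
  exact x2 ((eq_of_le_of_card_ge le_sup_left (eqU (hU.to_sup_of_normal_left' x3 (zpowers_le.2 x1))
    b1 fun s hs => ⟨fix_sup.2 ⟨B.2, b2⟩ s hs, fix_sup.2 ⟨i.2, b3⟩ s hs⟩)).ge
      (mem_sup_right (mem_zpowers x)))

end H20.OW
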