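import Cfsg.Agent.H20.Stn
import Cfsg.Agent.H17.AutC

/-! Values of the Steinberg character at `p`-regular elements. -/

set_option autoImplicit false
set_option linter.unusedSectionVars false

namespace H20.StV

open Subgroup Cfsg H17 Finset H24 H24.St0
open scoped Classical

section Gen
variable {G : Type*} [Group G] [Fintype G]

theorem sum_cnt_dc {T A B : Subgroup G} (hA : A ≤ T) (hB : B ≤ T) {α : Type*} (X : Finset α)
    (n : α → G) (h0 : ∀ a ∈ X, n a ∈ T) (h1 : ∀ x ∈ T, ∃ a ∈ X, ∃ u ∈ A, (u * x)⁻¹ * n a ∈ B)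
    (h2 : ∀ a ∈ X, ∀ b ∈ X, ∀ u ∈ A, (u * n a)⁻¹ * n b ∈ B → a = b) :
    ∑ g : A, (cnt T B g / Nat.card B : ℂ) = #X * Nat.card A := by
  letI : MulAction A (T ⧸ B.subgroupOf T) := MulAction.compHom _ (inclusion hA)
  have := MulAction.sum_card_fixedBy_eq_card_orbits_mul_card_group A (T ⧸ B.subgroupOf T)
  simp only [← Nat.card_eq_fintype_card] at this
  refine (sum_congr rfl fun g _ => (fpc_subgroupOf T B hB (inclusion hA g)).symm).trans ?_
  simp only [fixedPointCharacter]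
  norm_cast
  refine this.trans ?_
  congr 1
  rw [← Fintype.card_coe, ← Nat.card_eq_fintype_card]
  refine (Nat.card_eq_of_bijective (fun a : X => Quotient.mk'' ((⟨n a, h0 a a.2⟩ : T) :
    T ⧸ B.subgroupOf T)) ⟨fun a b e => ?_, fun y => ?_⟩).symm
  · obtain ⟨u, e⟩ := Quotient.exact' e
    exact Subtype.ext (h2 b b.2 a a.2 u u.2 ((QuotientGroup.eq (s := B.subgroupOf T)).1 e)).symm
  · obtain ⟨⟨x⟩⟩ := y
    obtain ⟨a, ha, u, hu, h⟩ := h1 x x.2
    exact ⟨⟨a, ha⟩, Quotient.sound' ⟨⟨u, hu⟩, QuotientGroup.eq.2 h⟩⟩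

theorem sum_mul_eq_zero {θ : G → ℂ} (hθ : IsCharacter G θ) {U : Type*} [Group U] [Fintype U]
    (φ : U →* G) (h : ∑ u, θ (φ u) = 0) (g : G) : ∑ u, θ (g * φ u) = 0 := by
  obtain ⟨n, ρ, rfl⟩ := hθ
  have h1 := classInner_character_one (ρ.comp φ)
  rw [classInner_one_right, show ∑ u, Representation.character (ρ.comp φ) u = 0 from h, mul_zero,
    eq_comm, Nat.cast_eq_zero, Submodule.finrank_eq_zero] at h1
  have h2 : ∑ u, ρ (φ u) = 0 := LinearMap.ext fun v => (Submodule.mem_bot ℂ).1 (h1 ▸ fun x => by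
    simp only [LinearMap.sum_apply, map_sum, MonoidHom.comp_apply, ← Module.End.mul_apply, ← map_mul]
    exact Fintype.sum_equiv (Equiv.mulLeft x) _ _ fun _ => rfl)
  simp only [Representation.character, map_mul, ← map_sum, ← mul_sum, h2, mul_zero, map_zero]

theorem inner_ind {T A : Subgroup G} [Fintype T] [Fintype A] (h : A ≤ T) {χ : G → ℂ}
    (hχ : IsClassFunction T fun g => χ g) : classInner (fun g : T => χ g)
      (indFun (A.subgroupOf T) fun _ => 1) = (Nat.card A : ℂ)⁻¹ * ∑ g : A, χ g := by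
  rw [frobenius_reciprocity' _ hχ, classInner_one_right,
    Nat.card_congr (subgroupOfEquivOfLe h).toEquiv]
  exact congrArg _ (Fintype.sum_equiv (subgroupOfEquivOfLe h).toEquiv _ _ fun _ => rfl)

theorem sum_coset {p : ℕ} [Fact p.Prime] {U : Subgroup G} (hU : IsPGroup p U) {g : G}
    (hg : ¬ p ∣ orderOf g) (hn : g ∈ normalizer (U : Set G)) {χ : G → ℂ} (hχ : IsClassFunction G χ)
    (h0 : ∀ x, p ∣ orderOf x → χ x = 0) :
    ∑ u : U, χ (g * u) = ((centralizer {g}).subgroupOf U).index * χ g := by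
  obtain ⟨C, hC⟩ : ∃ C, C = (centralizer {g}).subgroupOf U := ⟨_, rfl⟩
  have h1 : ∀ c : U, c ∈ C ↔ Commute g c := fun c => by
    rw [hC, mem_subgroupOf, mem_centralizer_singleton_iff]; exact eq_comm
  obtain ⟨e, he⟩ := hU.exists_card_eq
  have h2 := ((Fact.out : p.Prime).coprime_iff_not_dvd.2 hg).pow_left e
  obtain ⟨m, hm1, hm2⟩ := Nat.chineseRemainder h2 0 1
  have h3 : ∀ c ∈ C, (g * c) ^ m = g := fun c hc => by
    rw [((h1 c).1 hc).mul_pow, ← Subgroup.coe_pow, (orderOf_dvd_iff_pow_eq_one (x := c)).1 ((he ▸ orderOf_dvd_natCard c).trans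
      ((Nat.modEq_zero_iff_dvd).1 hm1)), pow_eq_pow_iff_modEq.2 hm2]; simp
  let f : (U ⧸ C) × C → U := fun x => ⟨g⁻¹ * x.1.out * g, (mem_normalizer_iff''.1 hn _).1 x.1.out.2⟩ *
    x.2 * x.1.out⁻¹
  have h4 : ∀ x, g * f x = x.1.out * (g * (x.2 : U)) * (x.1.out : G)⁻¹ := fun x => by
    simp [f, mul_assoc]
  have h5 : Function.Injective f := by
    rintro ⟨q, c⟩ ⟨q', c'⟩ e
    have h6 := congrArg (fun u : U => (g * u) ^ m) e
    simp only [h4, conj_pow, h3 _ c.2, h3 _ c'.2] at h6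
    obtain rfl : q = q' := by
      rw [← q.out_eq', ← q'.out_eq', QuotientGroup.eq, h1]
      change g * ((q.out : G)⁻¹ * q'.out) = (q.out : G)⁻¹ * q'.out * g
      rw [mul_assoc, eq_inv_mul_iff_mul_eq, ← eq_mul_inv_iff_mul_eq.1 h6]; group
    simpa [f] using e
  rw [← hC, ← (Nat.bijective_iff_injective_and_card f |>.2 ⟨h5, by
    rw [Nat.card_prod, card_eq_card_quotient_mul_card_subgroup C]⟩).sum_comp, Fintype.sum_prod_type,
    sum_congr rfl (g := fun _ => χ g), sum_const, card_univ, ← Nat.card_eq_fintype_card, nsmul_eq_mul]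
  · rfl
  intro q _
  rw [Fintype.sum_eq_single 1, h4, hχ]
  · simp
  intro c hc
  rw [h4, hχ]
  refine h0 _ (by_contra fun h => hc ?_)
  have h6 := ((Fact.out : p.Prime).coprime_iff_not_dvd.2 h).pow_left e
  have h7 : orderOf (c : U) ∣ orderOf (g * c) * orderOf g := by
    simpa [mul_comm] using
      ((Commute.refl g).mul_right ((h1 c).1 c.2)).inv_left.orderOf_mul_dvd_mul_orderOf
  exact Subtype.ext (orderOf_eq_one_iff.1 (Nat.eq_one_of_dvd_coprimes (h6.mul_right h2)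
    (he ▸ orderOf_dvd_natCard _) h7))

end Gen

variable {ι Φ : Type} [Fintype ι] [DecidableEq ι] [Fintype Φ] [DecidableEq Φ] {R : CD ι Φ}
  {F : Type*} [Field F] {G : Type*} [Group G] [Fintype G] (S : St R F G) (hG : S.Gr = ⊤)
include hG

theorem sum_cnt_PJ {K J I : Set ι} (hJ : J ⊆ K) (hI : I ⊆ K) :
    ∑ g : S.PJ J, (cnt (S.PJ K) (S.PJ I) g / Nat.card (S.PJ I) : ℂ) =
      #{w ∈ ({w | w ∈ R.WJ K ∧ ∀ k ∈ J, R.Pos (w⁻¹ (R.sim k))} : Finset _) |
        ∀ j ∈ I, R.Pos (w (R.sim j))} * Nat.card (S.PJ J) := by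
  choose! n hn hr using fun w (hw : w ∈ R.W) => S.exists_N_rep hw
  refine sum_cnt_dc (S.PJ_mono hJ) (S.PJ_mono hI) _ n (fun w hw => ?_) (fun x hx => ?_)
    fun w hw w' hw' u hu e => ?_
  · simp only [mem_filter, mem_univ, true_and] at hw
    exact S.mem_PJ_of_rep hw.1.1 (hn w (R.WJ_le_W _ hw.1.1)) (hr w (R.WJ_le_W _ hw.1.1))
  · obtain ⟨a, ha, b, hb, w, hw, -, h1, h2, h⟩ := S.exists_dc hG J I x
    obtain ⟨w', hw', h3⟩ := S.mem_PJ_iff.1 (mul_mem (mul_mem (S.PJ_mono hJ ha) hx) (S.PJ_mono hI hb))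
    obtain rfl := S.cell_unique h3 (mem_cell_of_rep _ h1 h2)
    refine ⟨w', by simpa [hw'] using h, a, ha, ?_⟩
    simpa [mul_assoc] using mul_mem hb (S.B_le_PJ I (S.H_le_B (S.mem_H_of_rep h1 (hn _ hw) h2 (hr _ hw))))
  · simp only [mem_filter, mem_univ, true_and] at hw hw'
    have h1 := R.WJ_le_W _ hw.1.1
    have h2 := R.WJ_le_W _ hw'.1.1
    obtain ⟨v, hv, h3⟩ := S.exists_cell_mul hu _ h1 _ (mem_cell_of_rep _ (hn _ h1) (hr _ h1))
    obtain ⟨v', hv', h4⟩ := S.exists_cell_mul (inv_mem e) _ (inv_mem (mul_mem (R.WJ_le_W _ hv) h1)) _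
      (Cell.inv h3)
    have h5 : w' = v * w * v'⁻¹ := S.cell_unique (mem_cell_of_rep _ (hn _ h2) (hr _ h2))
      (by simpa [mul_assoc] using Cell.inv h4)
    exact (h5.trans (RS.red_unique (R.W_le_Aut h1) hw.1.2 hw.2 v hv _ (inv_mem hv')
      (h5 ▸ hw'.1.2) (h5 ▸ hw'.2))).symm

theorem sum_fK {K J : Finset ι} (hJ : J ⊆ K) :
    ∑ g : S.PJ J, S.fK K g = if J = ∅ then (Nat.card (S.PJ J) : ℂ) else 0 := by
  simp only [St.fK]
  rw [sum_comm, sum_congr rfl fun I hI => by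
    rw [← mul_sum, sum_cnt_PJ S hG (coe_subset.2 hJ) (coe_subset.2 (mem_powerset.1 hI)), ← mul_assoc],
    ← sum_mul]
  have := alt_sum K ({w | w ∈ R.WJ K ∧ ∀ k ∈ (J : Set ι), R.Pos (w⁻¹ (R.sim k))} : Finset _)
    fun w j => R.Pos (w (R.sim j))
  refine (congrArg (· * _) (Eq.trans (by congr!) this)).trans ?_
  split_ifs with h
  · rw [card_eq_one.2 ⟨R.wL K, Finset.ext fun w => by
      simp only [h, mem_filter, mem_univ, true_and, mem_singleton]
      exact ⟨fun H => RS.eq_wL H.1.1 H.2, fun H => H ▸ ⟨⟨RS.wL_mem _, by simp⟩, fun j hj =>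
        RS.wL_neg (R.InJ_sim.2 hj) (R.pos_sim j)⟩⟩⟩]
    simp
  · obtain ⟨k, hk⟩ := nonempty_iff_ne_empty.2 h
    rw [card_eq_zero.2 (Finset.eq_empty_of_forall_notMem fun w hw => ?_)]
    · simp
    simp only [mem_filter, mem_univ, true_and] at hw
    have := hw.1.2 k hk
    rw [RS.eq_wL hw.1.1 hw.2, RS.wL_inv] at this
    exact RS.wL_neg (R.InJ_sim.2 (hJ hk)) (R.pos_sim k) this

omit hG in
theorem fK_eq (K : Finset ι) : (fun g : S.PJ K => S.fK K g) = ∑ J ∈ K.powerset,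
    (((-1) ^ #J : ℤ) : ℂ) • indFun ((S.PJ J).subgroupOf (S.PJ K)) fun _ => 1 := by
  funext g
  rw [St.fK, Finset.sum_apply]
  refine sum_congr rfl fun J hJ => ?_
  rw [← fpc_subgroupOf _ _ (S.PJ_mono (coe_subset.2 (mem_powerset.1 hJ))), indFun_one_eq_perm]
  simp [fixedPointCharacter]

omit hG in
theorem isGen_fK (K : Finset ι) : IsGeneralizedCharacter (S.PJ K) fun g => S.fK K g :=
  fK_eq S K ▸ isGen_sum _ _ fun _ _ => isGen_one.ind.intCast_smul _

omit hG in
theorem inner_fK (K : Finset ι) {χ : G → ℂ} (hχ : IsClassFunction (S.PJ K) fun g => χ g)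
    (h : ∀ J ⊆ K, ∑ g : S.PJ J, χ g = if J = ∅ then (Nat.card (S.PJ J) : ℂ) else 0) :
    classInner (fun g : S.PJ K => χ g) (fun g => S.fK K g) = 1 := by
  rw [fK_eq, classInner_sum_right, sum_eq_single ∅]
  · rw [classInner_smul_right, inner_ind (S.PJ_mono (coe_subset.2 (empty_subset K))) hχ,
      h _ (empty_subset K), if_pos rfl, inv_mul_cancel₀ (Nat.cast_ne_zero.2 Nat.card_pos.ne')]
    simp
  · intro J hJ h0
    rw [classInner_smul_right, inner_ind (S.PJ_mono (coe_subset.2 (mem_powerset.1 hJ))) hχ,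
      h _ (mem_powerset.1 hJ), if_neg h0, mul_zero, mul_zero]
  · simp

theorem fK_one (K : Finset ι) : S.fK K 1 * Nat.card (S.UJ K) = Nat.card S.U := by
  have c0 : ∀ A : Subgroup G, (Nat.card A : ℂ) ≠ 0 := fun A => Nat.cast_ne_zero.2 Nat.card_pos.ne'
  rw [S.fK_B hG _ (one_mem _), show cnt S.B _ 1 = Nat.card S.B from Eq.trans (by simp [cnt])
    (card_coset S.B 1), card_sup_of_disjoint (A := S.UJ K) (S.H_le_normalizer _)
      (eq_bot_iff.2 fun _ h => S.eq_one_of_mem_U_H (S.UJ_le_U _ h.1) h.2), S.card_B]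
  push_cast
  field_simp [c0]

theorem isIrr_fK (K : Finset ι) : IsIrrCharacter (S.PJ K) fun g => S.fK K g := by
  refine (isGen_fK S K).isIrr_of_norm_one (inner_fK S K (isGen_fK S K).isClassFunction
    fun J => sum_fK S hG) ?_
  rw [OneMemClass.coe_one, eq_div_of_mul_eq (Nat.cast_ne_zero.2 Nat.card_pos.ne') (fK_one S hG K),
    Complex.div_natCast_re, Complex.natCast_re]
  positivity

omit hG in
theorem fK_mul (K : Finset ι) (g : G) {u : G} (hu : u ∈ S.UJ K) : S.fK K (g * u) = S.fK K g := by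
  refine sum_congr rfl fun J _ => ?_
  simp only [cnt]
  congr 4
  refine filter_congr fun x _ => and_congr_right fun hx => ?_
  rw [show x⁻¹ * (g * u) * x = x⁻¹ * g * x * (x⁻¹ * u * x) by group]
  exact mul_mem_cancel_right (S.B_le_PJ _ (S.U_le_B (S.UJ_le_U _ ((mem_normalizer_iff''.1
    (S.PJ_le_normalizer _ hx) u).1 hu))))

variable [Fintype F] (h3 : S.R3) (p : ℕ) [Fact p.Prime] [CharP F p]
include h3

theorem vanish {g : G} (hg : p ∣ orderOf g) : S.stCh g = 0 :=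
  H19.vanish_of_vd (vd_stCh S hG h3) hg

include p in
theorem sum_st (K : Finset ι) {g : G} (hg : g ∈ S.PJ K) :
    ∑ u : S.UJ K, S.stCh (g * u) = Nat.card (S.UJ K) * S.fK K g := by
  have h1 := (S.isIrr_stCh hG).isCharacter.restrict (S.PJ K)
  have h2 : ∀ g, ∑ u : S.UJ K, S.fK K (g * u) = Nat.card (S.UJ K) * S.fK K g := fun g => by
    simp only [fK_mul S K g (SetLike.coe_mem _), sum_const, card_univ, nsmul_eq_mul,
      Nat.card_eq_fintype_card]
  have := sum_mul_eq_zero (h1.sub_irr (isIrr_fK S hG K) (by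
    rw [inner_fK S K h1.isClassFunction fun J _ => S.sum_stCh hG J]; exact one_ne_zero))
    (inclusion ((S.UJ_le_U K).trans (S.U_le_B.trans (S.B_le_PJ _)))) (by
      have := h2 1
      simp only [one_mul] at this
      simp only [Pi.sub_apply, coe_inclusion, sum_sub_distrib, this]
      rw [mul_comm, fK_one S hG, Fintype.sum_eq_single 1, OneMemClass.coe_one, S.stCh_one hG, sub_self]
      refine fun u hu => vanish S hG h3 p ?_
      rw [orderOf_coe]
      exact ((S.isPGroup_U p).to_le (S.UJ_le_U K)).dvd_orderOf hu) ⟨g, hg⟩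
  simpa only [Pi.sub_apply, Subgroup.coe_mul, coe_inclusion, sum_sub_distrib, h2, sub_eq_zero] using this

theorem st_pow {g : G} (hg : ¬ p ∣ orderOf g) : ∃ a ≤ (Nat.card (centralizer {g})).factorization p,
    S.stCh g = (p ^ a : ℕ) ∨ S.stCh g = -(p ^ a : ℕ) := by
  have hp : p.Prime := Fact.out
  have hc := (S.isIrr_stCh hG).isClassFunction
  obtain ⟨K, ⟨x, hx⟩, hK⟩ := Set.exists_min_image {K : Finset ι | ∃ x, x⁻¹ * g * x ∈ S.PJ K} card
    (Set.toFinite _) ⟨univ, 1, by simp [S.PJ_univ, hG]⟩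
  have h1 : S.fK K (x⁻¹ * g * x) = (-1) ^ #K := by
    rw [St.fK, sum_eq_single K, show cnt _ _ _ = Nat.card (S.PJ K) from Eq.trans (by
      simp only [cnt, inv_one, one_mul]
      exact congrArg card (filter_congr fun y _ => and_iff_left_of_imp fun hy =>
        mul_mem (mul_mem (inv_mem hy) hx) hy)) (card_coset _ 1),
      div_self (Nat.cast_ne_zero.2 Nat.card_pos.ne'), mul_one]
    · intro J hJ h
      rw [show cnt _ _ _ = 0 from card_eq_zero.2 (filter_eq_empty_iff.2 fun y _ hy => h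
        (eq_of_subset_of_card_le (mem_powerset.1 hJ) (hK J ⟨x * y, by simpa [mul_assoc] using hy.2⟩)))]
      simp
    · simp
  have h2 := (S.isPGroup_U p).to_le (S.UJ_le_U K)
  have h4 := sum_st S hG h3 p K hx
  rw [sum_coset h2 (by rwa [← MulAut.conj_inv_apply, MulEquiv.orderOf_eq]) (S.PJ_le_normalizer _ hx) hc
    fun _ => vanish S hG h3 p, hc.conj', h1, ← index_mul_card ((centralizer {x⁻¹ * g * x}).subgroupOf _),
    Nat.cast_mul, mul_assoc (_ : ℂ)] at h4
  obtain ⟨a, ha⟩ := (h2.to_subgroup ((centralizer {x⁻¹ * g * x}).subgroupOf _)).exists_card_eq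
  refine ⟨a, (hp.pow_dvd_iff_le_factorization Nat.card_pos.ne').1 ?_, ?_⟩
  · rw [card_centralizer_of_isConj (isConj_iff.2 ⟨x⁻¹, (by simp : _ = x⁻¹ * g * x)⟩), ← ha,
      ← inf_subgroupOf_right, Nat.card_congr (subgroupOfEquivOfLe inf_le_right).toEquiv]
    exact card_dvd_of_le inf_le_left
  · rw [mul_left_cancel₀ (Nat.cast_ne_zero.2 index_ne_zero_of_finite) h4, ha]
    rcases neg_one_pow_eq_or ℂ #K with h | h <;> simp [h]

theorem st_value {g : G} (hg : ¬ p ∣ orderOf g) :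
    S.stCh g = (p ^ (Nat.card (centralizer {g})).factorization p : ℕ) ∨
      S.stCh g = -(p ^ (Nat.card (centralizer {g})).factorization p : ℕ) := by
  have hp : p.Prime := Fact.out
  obtain ⟨a, h1, h2⟩ := st_pow S hG h3 p hg
  refine le_antisymm h1 ?_ ▸ h2
  have h4 := (S.isIrr_stCh hG).isIntegral_central g
  have h5 : Nat.card S.U = p ^ (Nat.card G).factorization p := (S.sylU hG h3 p).card_eq_multiplicity
  have h6 : IsIntegral ℤ ((((centralizer {g}).index * p ^ a : ℕ) : ℂ) / Nat.card S.U) := by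
    rw [S.stCh_one hG] at h4
    rcases h2 with h | h <;> rw [h] at h4
    · simpa using h4
    · simpa [neg_div] using h4.neg
  have h7 := (hp.pow_dvd_iff_le_factorization (mul_ne_zero index_ne_zero_of_finite
    (pow_ne_zero a hp.ne_zero))).1 (h5 ▸ nat_dvd_of_isIntegral_div Nat.card_pos.ne' h6)
  rw [← index_mul_card (centralizer {g}), Nat.factorization_mul index_ne_zero_of_finite
    Nat.card_pos.ne', Nat.factorization_mul index_ne_zero_of_finite (pow_ne_zero a hp.ne_zero),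
    hp.factorization_pow] at h7
  simpa using h7

end H20.StV
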