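import Cfsg.Agent.H20.Stn2
import Cfsg.Agent.H20.BT
import Cfsg.Agent.H19.Ht4

/-! Blocks of groups with the Borel–Tits property. -/

set_option autoImplicit false
set_option linter.unusedSectionVars false

open MonoidAlgebra Subgroup H10 Cfsg H17 Finset Matrix
open H19 (kk Blk irr)

namespace H20

/-- every `p`-local subgroup normalises a `p`-subgroup whose centraliser has only central
`p`-regular elements -/
def CP (p : ℕ) (G : Type*) [Group G] : Prop :=
  ∀ D : Subgroup G, IsPGroup p D → D ≠ ⊥ → ∃ A : Subgroup G, IsPGroup p A ∧ nrm D ≤ nrm A ∧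
    ∀ y ∈ cent A, ¬ p ∣ orderOf y → y ∈ center G

section
variable {G : Type*} [Group G] [Finite G] {p : ℕ} [hp : Fact p.Prime] {O : ValuationSubring ℂ}
  [CharP (kk O) p]

theorem CP.cases (h : CP p G) (β : Blk O G) :
    blockDefect p (irr β) = 0 ∨ ∀ P, IsSylowIn p P ⊤ → IsDef p ⊤ (eG β) P := by
  obtain ⟨y, hy⟩ := exists_isDefCl β
  obtain ⟨D, hD⟩ := exists_isSylowIn p (centralizer {y})
  have h1 := isDef_of_isDefCl hy hD
  by_cases h0 : D = ⊥
  · exact .inl (by rw [← h1.fact_card, h0, card_bot, Nat.factorization_one]; rfl)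
  obtain ⟨A, hA, h2, h3⟩ := h D hD.isPGroup h0
  have h4 := h3 y (le_cent_comm.1 (((h1.le_of_nrm (isBlk_eG β) hA h2).trans hD.le).trans
    (cent_zpowers y).ge) (mem_zpowers y)) hy.preg
  refine .inr fun P hP => isDef_of_isDefCl hy ?_
  rwa [show centralizer {y} = ⊤ from
    eq_top_iff.2 fun g _ => mem_centralizer_singleton_iff.2 (mem_center_iff.1 h4 g)]

theorem CP.defect (h : CP p G) (β : Blk O G) :
    blockDefect p (irr β) = 0 ∨ blockDefect p (irr β) = (Nat.card G).factorization p := by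
  obtain ⟨P, hP⟩ := exists_isSylowIn p (⊤ : Subgroup G)
  refine (h.cases β).imp_right fun h => ?_
  rw [← (h P hP).fact_card, hP.card_eq_pow, card_top, hp.out.factorization_pow,
    Finsupp.single_eq_same]

omit [CharP (kk O) p] in
theorem CP.central (h : CP p G) {P : Subgroup G} (hP : IsSylowIn p P ⊤) (h0 : P ≠ ⊥) {y : G}
    (hy : y ∈ cent P) (h1 : ¬ p ∣ orderOf y) : y ∈ center G := by
  obtain ⟨A, hA, h2, h3⟩ := h P hP.isPGroup h0
  have h4 := hP.eq_of_le (isPGroup_sup_of_NN' hA hP.isPGroup ((le_nrm_self P).trans h2))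
    le_sup_right le_top
  exact h3 y (fun a ha => hy a ((le_sup_left.trans h4.le : A ≤ P) ha)) h1

theorem CP.card_full (h : CP p G) (hZ : ¬ p ∣ Nat.card (center G)) {P : Subgroup G}
    (hP : IsSylowIn p P ⊤) (h0 : P ≠ ⊥) :
    Nat.card {β : Blk O G // H19.IsDef p β P} = Nat.card (center G) := by
  rw [H19.card_isDef_of_sylow hP, H19.card_blk_of_normal_sylow (H10.isSylowIn_subgroupOf_top
    (hP.of_le (le_nrm_self _) le_top))]
  simp only [H19.subgroupOf_cent (le_nrm_self _), mem_subgroupOf]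
  have h1 : ∀ z : center G, z.1 ∈ cent P := fun z g _ => mem_center_iff.1 z.2 g
  have h2 : ∀ (z : center G) (n : nrm P), ConjClasses.mk n = .mk ⟨z, cent_le_nrm _ (h1 z)⟩ →
      n = ⟨z, cent_le_nrm _ (h1 z)⟩ := fun z n hn => by
    obtain ⟨c, rfl⟩ := isConj_iff.1 (ConjClasses.mk_eq_mk_iff_isConj.1 hn.symm)
    exact Subtype.ext (by simp [mem_center_iff.1 z.2 c])
  have h3 : ∀ (z : center G) (n : nrm P), ConjClasses.mk n = .mk ⟨z, cent_le_nrm _ (h1 z)⟩ →
      ¬ p ∣ orderOf n ∧ n.1 ∈ cent P := fun z n hn => by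
    rw [h2 z n hn]
    exact ⟨fun h => hZ (h.trans (by
      rw [← orderOf_coe]; exact (center G).orderOf_dvd_natCard z.2)), h1 z⟩
  refine (Nat.card_eq_of_bijective (fun z => ⟨.mk ⟨z, cent_le_nrm _ (h1 z)⟩, h3 z⟩)
    ⟨fun a b h => ?_, fun ⟨C, hC⟩ => ?_⟩).symm
  · exact Subtype.ext (congrArg (fun x : nrm P => x.1) (h2 _ _ (Subtype.mk.inj h)))
  · obtain ⟨n, rfl⟩ := ConjClasses.mk_surjective C
    exact ⟨⟨n, h.central hP h0 (hC n rfl).2 (orderOf_coe n ▸ (hC n rfl).1)⟩, rfl⟩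

theorem CP.card_blk (h : CP p G) (hZ : ¬ p ∣ Nat.card (center G)) (hG : p ∣ Nat.card G)
    (h1 : ∃! χ : IrrCharacter G, vd p χ = (Nat.card G).factorization p) :
    Nat.card (Blk O G) = Nat.card (center G) + 1 := by
  classical
  obtain ⟨P, hP⟩ := exists_isSylowIn p (⊤ : Subgroup G)
  have h2 : (Nat.card P).factorization p ≠ 0 := by
    rw [hP.card_eq_pow, card_top, hp.out.factorization_pow, Finsupp.single_eq_same]
    exact (hp.out.factorization_pos_of_dvd Nat.card_pos.ne' hG).ne'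
  obtain ⟨χ, h3, h4⟩ := h1
  rw [← h.card_full (O := O) hZ hP (fun h => h2 (by rw [h, card_bot, Nat.factorization_one]; rfl)),
    ← Nat.card_congr (Equiv.sumCompl fun β : Blk O G => H19.IsDef p β P), Nat.card_sum]
  congr 1
  refine Nat.card_eq_one_iff_exists.2 ⟨⟨H19.lam O χ, fun h => h2 (h.fact_card.trans
    (H19.defect_zero_of_vd h3))⟩, fun ⟨β, hβ⟩ => Subtype.ext ?_⟩
  obtain ⟨ψ, rfl⟩ := H19.lam_surjective β
  exact congrArg (H19.lam O) (h4 ψ (H19.vd_of_defect_zero ((h.cases _).resolve_right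
    fun h => hβ ((isDef_iff _ _).2 (h P hP))) rfl))

omit [CharP (kk O) p] in
theorem card_isPBlock {M : Ideal AlgInt} (hO : H19.Over O M) :
    Nat.card {B : Set (IrrCharacter G) // IsPBlock M B} = Nat.card (Blk O G) := by
  refine (Nat.card_eq_of_bijective (fun β => ⟨irr β, hO.isPBlock_irr _⟩)
    ⟨fun a b h => H19.irr_injective (Subtype.mk.inj h), fun ⟨B, h1⟩ => ?_⟩).symm
  obtain ⟨β, rfl⟩ := hO.exists_blk h1
  exact ⟨β, rfl⟩

end

theorem cp_sl {ι : Type*} [Fintype ι] [DecidableEq ι] {F : Type*} [Field F] [Finite F] (p : ℕ)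
    [hp : Fact p.Prime] [CharP F p] : CP p (SpecialLinearGroup ι F) := fun D hD h0 => by
  let W : Submodule F (ι → F) :=
    { carrier := {v | ∀ d ∈ D, d • v = v}
      add_mem' := fun ha hb d hd => by rw [smul_add, ha d hd, hb d hd]
      zero_mem' := fun _ _ => smul_zero _
      smul_mem' := fun c v hv d hd => by rw [smul_comm, hv d hd] }
  have h2 : W ≠ ⊤ := fun h => h0 (eq_bot_iff.2 fun d hd => sl_ext fun v => by
    rw [one_smul]; exact (h ▸ Submodule.mem_top : v ∈ W) d hd)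
  have h3 : W ≠ ⊥ := fun h => by
    obtain ⟨v, hv⟩ : ∃ v, v ∉ W := by
      by_contra! h; exact h2 (eq_top_iff.2 fun v _ => h v)
    obtain ⟨w, -, hw0, hw⟩ := H25.exists_fixed_vector (V := ι → F) hD
      (fun v => by rw [← Nat.cast_smul_eq_nsmul F, CharP.cast_eq_zero, zero_smul]) ⊤
      (fun _ _ _ => trivial) (w := v) trivial fun h => hv (h ▸ W.zero_mem)
    exact hw0 ((Submodule.mem_bot F).1 (h ▸ fun d hd => hw ⟨d, hd⟩))
  have h4 : ∀ g ∈ nrm D, ∀ w ∈ W, g • w ∈ W := fun g hg w hw d hd => by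
    have := hw _ ((mem_normalizer_iff''.1 hg d).1 hd)
    rwa [mul_smul, mul_smul, inv_smul_eq_iff] at this
  refine ⟨uR W, isPGroup_uR W, mem_nrm_of_le' fun g hg a ha =>
    ⟨fun v => by simpa [mul_smul, smul_sub] using h4 g hg _ (ha.1 (g⁻¹ • v)), fun w hw => by
      rw [mul_smul, mul_smul, ha.2 _ (h4 _ (inv_mem hg) w hw), smul_inv_smul]⟩, fun y hy h => ?_⟩
  exact mem_center_iff.2 fun g => mem_centralizer_singleton_iff.1
    (central_of_cent_uR h3 h2 h hy ▸ mem_top g)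

theorem cp_st {ι Φ : Type} [Fintype ι] [DecidableEq ι] [Fintype Φ] [DecidableEq Φ]
    {R : H24.CD ι Φ} {F : Type*} [Field F] [Fintype F] {G : Type*} [Group G] (S : H24.St R F G)
    (p : ℕ) [Fact p.Prime] [CharP F p] (hG : S.Gr = ⊤) (ha : S.Adj)
    (hc : ∃ r, ∀ i, R.rt r i ≠ 0) : CP p G := fun D hD h0 => by
  obtain ⟨g, J, ⟨i, hi⟩, h1, -⟩ := BT.borel_tits S hG p hD h0
  refine ⟨(S.UJ J).comap (MulAut.conj g⁻¹).toMonoidHom, ((S.isPGroup_U p).to_le
    (S.UJ_le_U J)).comap_of_injective _ (MulAut.conj g⁻¹).injective,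
    mem_nrm_of_le' fun x hx a ha => ?_, fun y hy h => ?_⟩
  · simpa [mul_assoc] using (mem_normalizer_iff.1 (S.PJ_le_normalizer J (h1 x hx)) _).1 ha
  have h2 : ∀ u ∈ S.UJ J, g⁻¹ * y * g * u = u * (g⁻¹ * y * g) := fun u hu => by
    have := hy (g * u * g⁻¹) (by simpa [mul_assoc] using hu)
    calc _ = g⁻¹ * (y * (g * u * g⁻¹)) * g := by group
      _ = _ := by rw [← this]; group
  have h3 := S.mem_U_of_cent ha hc hi (S.normalizer_UJ J ▸ ⟨cent_le_nrm _ fun u hu =>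
    (h2 u hu).symm, hG ▸ mem_top _⟩) h2
  obtain ⟨k, hk⟩ := IsPGroup.iff_orderOf.1 (S.isPGroup_U p) ⟨_, h3⟩
  rw [orderOf_mk, show g⁻¹ * y * g = MulAut.conj g⁻¹ y by simp, MulEquiv.orderOf_eq] at hk
  rcases k with _ | k
  · rw [orderOf_eq_one_iff.1 hk]; exact one_mem _
  · exact absurd (hk ▸ dvd_pow_self p k.succ_ne_zero) h

end H20
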